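import Mathlib
import Cfsg.Agent.Lib.FGStruct.GoE
import Cfsg.Agent.Lib.Elusive.HermPair
import Cfsg.Agent.Lib.ElusF.HzTI
import Cfsg.Agent.Lib.Witt.HermModel
import Cfsg.Agent.Lib.Classical.HermOrders

/-!
# Elements of `SL_n(q₀²)` and similarities of a unitary form: basics and eigenvalue counts
-/

set_option autoImplicit false
set_option linter.style.haveILetI false
set_option linter.unusedSectionVars false
set_option linter.unusedSimpArgs false

namespace Cfsg.Agent.Lib.ElusU.Base

open Module Matrix Polynomial Cfsg Cfsg.Geo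
open Cfsg.Agent.Lib.HermCount.Field Cfsg.Agent.Lib.HermCount.Space Cfsg.Agent.Lib.HermCount.Lines
open scoped MatrixGroups

variable {F : Type*} [Field F] {n : ℕ}

/-- Every element of order dividing `r` modulo scalars has a conjugate in the similarity group. -/
def Elus (f : (Fin n → F) → (Fin n → F) → F) (r : ℕ) : Prop :=
  ∀ x ∈ specialLinear (Fin n) F,
    (∃ z : F, ((x ^ r : GL (Fin n) F) : Matrix (Fin n) (Fin n) F) = z • (1 : Matrix (Fin n) (Fin n) F)) →
    (∀ z : F, (x : Matrix (Fin n) (Fin n) F) ≠ z • (1 : Matrix (Fin n) (Fin n) F)) →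
    ∃ g ∈ specialLinear (Fin n) F, g⁻¹ * x * g ∈ similarityGroup f

theorem mem_sl_conj (Ψ x : GL (Fin n) F) (hx : x ∈ specialLinear (Fin n) F) :
    Ψ * x * Ψ⁻¹ ∈ specialLinear (Fin n) F := by
  have h : Matrix.GeneralLinearGroup.det x = 1 := hx
  change Matrix.GeneralLinearGroup.det (Ψ * x * Ψ⁻¹) = 1
  rw [map_mul, map_mul, h, mul_one, map_inv, mul_inv_cancel]

/-- Transport of the property along a change of coordinates. -/
theorem Elus.of_comp {f : (Fin n → F) → (Fin n → F) → F} {r : ℕ} (Ψ : GL (Fin n) F)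
    (h : Elus (fun u v => f ((Ψ : Matrix (Fin n) (Fin n) F) *ᵥ u) ((Ψ : Matrix (Fin n) (Fin n) F) *ᵥ v)) r) :
    Elus f r := by
  intro x hx hz hns
  obtain ⟨z, hz⟩ := hz
  have hconjpow : ∀ k : ℕ, (Ψ⁻¹ * x * Ψ) ^ k = Ψ⁻¹ * x ^ k * Ψ := by
    intro k
    induction k with
    | zero => simp
    | succ k ih =>
      rw [pow_succ, ih, pow_succ]
      group
  have hx' : Ψ⁻¹ * x * Ψ ∈ specialLinear (Fin n) F := by
    have := mem_sl_conj Ψ⁻¹ x hx
    simpa using this
  have hΨ1 : ((Ψ⁻¹ : GL (Fin n) F) : Matrix (Fin n) (Fin n) F) * (Ψ : Matrix (Fin n) (Fin n) F) = 1 := by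
    rw [← Units.val_mul, inv_mul_cancel, Units.val_one]
  have hΨ2 : (Ψ : Matrix (Fin n) (Fin n) F) * ((Ψ⁻¹ : GL (Fin n) F) : Matrix (Fin n) (Fin n) F) = 1 := by
    rw [← Units.val_mul, mul_inv_cancel, Units.val_one]
  obtain ⟨g, hg, c, hc⟩ := h (Ψ⁻¹ * x * Ψ) hx' ⟨z, by
      rw [hconjpow, Units.val_mul, Units.val_mul, hz]
      simp [Matrix.mul_smul, Matrix.smul_mul, hΨ1]⟩ (fun w hw => hns w (by
      have h1 : (x : Matrix (Fin n) (Fin n) F) =
          (Ψ : Matrix (Fin n) (Fin n) F) * ((Ψ⁻¹ * x * Ψ : GL (Fin n) F) : Matrix (Fin n) (Fin n) F) *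
            ((Ψ⁻¹ : GL (Fin n) F) : Matrix (Fin n) (Fin n) F) := by
        rw [← Units.val_mul, ← Units.val_mul]
        congr 1
        group
      rw [h1, hw]
      simp [Matrix.mul_smul, Matrix.smul_mul, hΨ2]))
  refine ⟨Ψ * g * Ψ⁻¹, mem_sl_conj Ψ g hg, c, fun u v => ?_⟩
  have hc' := hc (((Ψ⁻¹ : GL (Fin n) F) : Matrix (Fin n) (Fin n) F) *ᵥ u)
    (((Ψ⁻¹ : GL (Fin n) F) : Matrix (Fin n) (Fin n) F) *ᵥ v)
  have heq : (Ψ * g * Ψ⁻¹)⁻¹ * x * (Ψ * g * Ψ⁻¹) = Ψ * (g⁻¹ * (Ψ⁻¹ * x * Ψ) * g) * Ψ⁻¹ := by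
    group
  rw [heq]
  simp only [Units.val_mul, ← Matrix.mulVec_mulVec] at hc' ⊢
  simp only [Matrix.mulVec_mulVec, hΨ2, Matrix.one_mulVec] at hc'
  simp only [Matrix.mulVec_mulVec, Matrix.mul_assoc] at hc' ⊢
  exact hc'

/-- The property depends only on the form up to a change of coordinates. -/
theorem Elus.comp {f : (Fin n → F) → (Fin n → F) → F} {r : ℕ} (Ψ : GL (Fin n) F) (h : Elus f r) :
    Elus (fun u v => f ((Ψ : Matrix (Fin n) (Fin n) F) *ᵥ u) ((Ψ : Matrix (Fin n) (Fin n) F) *ᵥ v)) r := by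
  refine Elus.of_comp Ψ⁻¹ ?_
  have hΨ2 : (Ψ : Matrix (Fin n) (Fin n) F) * ((Ψ⁻¹ : GL (Fin n) F) : Matrix (Fin n) (Fin n) F) = 1 := by
    rw [← Units.val_mul, mul_inv_cancel, Units.val_one]
  simpa only [Matrix.mulVec_mulVec, hΨ2, Matrix.one_mulVec] using h

variable [Fintype F] {q : ℕ}

/-- A Hermitian form in the sense of the statement is a Hermitian space. -/
theorem hspace_of_pow {f : (Fin n → F) → (Fin n → F) → F} (hf : IsUnitaryFormPow q f) : HSpace q f where
  add_left := hf.add_left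
  smul_left := hf.smul_left
  conj x y := hf.herm y x
  nd x hx := by
    by_contra h
    obtain ⟨-, y, hy⟩ := hf.nondegenerate x h
    exact hy (hx y)

/-- Change of coordinates to the standard form. -/
theorem exists_coord (hF : Fintype.card F = q ^ 2) {f : (Fin n → F) → (Fin n → F) → F} (hf : IsUnitaryFormPow q f) :
    ∃ Ψ : GL (Fin n) F, ∀ u v, f ((Ψ : Matrix (Fin n) (Fin n) F) *ᵥ u) ((Ψ : Matrix (Fin n) (Fin n) F) *ᵥ v) =
      hermForm n F q u v := by
  classical
  obtain ⟨ψ, hψ⟩ := Cfsg.Agent.Lib.Witt.HermModel.exists_model (hspace_of_pow hf) hF n (by simp)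
  refine ⟨Cfsg.Agent.Lib.Classical.MatrixBridge.glToLin.symm ψ, fun x y => ?_⟩
  rw [Cfsg.Agent.Lib.Classical.MatrixBridge.glToLin_symm_mulVec,
    Cfsg.Agent.Lib.Classical.MatrixBridge.glToLin_symm_mulVec, hψ]

/-- The property for a unitary form is the property for the standard form. -/
theorem elus_iff (hF : Fintype.card F = q ^ 2) {f : (Fin n → F) → (Fin n → F) → F} (hf : IsUnitaryFormPow q f) (r : ℕ) :
    Elus f r ↔ Elus (hermForm n F q) r := by
  obtain ⟨Ψ, hΨ⟩ := exists_coord hF hf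
  have h1 : (fun u v => f ((Ψ : Matrix (Fin n) (Fin n) F) *ᵥ u) ((Ψ : Matrix (Fin n) (Fin n) F) *ᵥ v)) =
      hermForm n F q := by
    funext u v
    exact hΨ u v
  constructor
  · intro h
    have := Elus.comp Ψ h
    rwa [h1] at this
  · intro h
    refine Elus.of_comp Ψ ?_
    rwa [h1]

/-- A matrix-level criterion for failure. -/
theorem not_elus_of_matrix (r : ℕ) (M : Matrix (Fin n) (Fin n) F) (hdet : M.det = 1) (z : F)
    (hz : M ^ r = z • 1) (hns : ∀ z : F, M ≠ z • 1)
    (h : ∀ (P' P₀ : Matrix (Fin n) (Fin n) F) (c : F), c ≠ 0 → P' * P₀ = 1 → P₀ * P' = 1 →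
      (∀ u v, hermForm n F q ((P' * M * P₀) *ᵥ u) ((P' * M * P₀) *ᵥ v) = c * hermForm n F q u v) → False) :
    ¬ Elus (hermForm n F q) r := by
  intro hE
  let x : GL (Fin n) F := Matrix.SpecialLinearGroup.toGL ⟨M, hdet⟩
  have hx : (x : Matrix (Fin n) (Fin n) F) = M := rfl
  obtain ⟨g, -, c, hc⟩ := hE x (by
      change Matrix.GeneralLinearGroup.det x = 1
      ext
      simpa [hx] using hdet) ⟨z, by rw [Units.val_pow_eq_pow_val, hx, hz]⟩ (by rw [hx]; exact hns)
  refine h ((g⁻¹ : GL (Fin n) F) : Matrix (Fin n) (Fin n) F) (g : Matrix (Fin n) (Fin n) F) c c.ne_zero ?_ ?_ ?_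
  · rw [← Units.val_mul, inv_mul_cancel, Units.val_one]
  · rw [← Units.val_mul, mul_inv_cancel, Units.val_one]
  · intro u v
    have := hc u v
    rwa [Units.val_mul, Units.val_mul, hx] at this

/-- The form on basis vectors. -/
theorem herm_single (hF : Fintype.card F = q ^ 2) (i j : Fin n) :
    hermForm n F q (Pi.single i 1) (Pi.single j 1) = if i = j then 1 else 0 := by
  classical
  have hq : q ≠ 0 := by
    have := two_le hF
    omega
  unfold hermForm
  rw [Finset.sum_eq_single i]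
  · by_cases h : i = j
    · subst h
      simp
    · simp [h, Pi.single_apply, Ne.symm h, hq]
  · intro b _ hb
    simp [hb]
  · simp

/-- Multipliers of elements of order dividing `r`. -/
theorem mu_pow (hF : Fintype.card F = q ^ 2) (hn : 0 < n)
    (Y : Matrix (Fin n) (Fin n) F) (c : F) (h : ∀ u v, hermForm n F q (Y *ᵥ u) (Y *ᵥ v) = c * hermForm n F q u v)
    {r : ℕ} (hY : Y ^ r = 1) : c ^ r = 1 := by
  classical
  have hw := herm_single hF (⟨0, hn⟩ : Fin n) ⟨0, hn⟩
  rw [if_pos rfl] at hw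
  have hpow : ∀ (k : ℕ) (u v : Fin n → F), hermForm n F q ((Y ^ k) *ᵥ u) ((Y ^ k) *ᵥ v) = c ^ k * hermForm n F q u v := by
    intro k
    induction k with
    | zero => intro u v; simp
    | succ k ih =>
      intro u v
      rw [pow_succ, ← Matrix.mulVec_mulVec, ← Matrix.mulVec_mulVec, ih, h, pow_succ, mul_assoc]
  have h3 := hpow r (Pi.single ⟨0, hn⟩ 1) (Pi.single ⟨0, hn⟩ 1)
  rw [hY, Matrix.one_mulVec, hw, mul_one] at h3
  exact h3.symm

/-- Multipliers lie in the fixed field. -/
theorem mu_frob (hF : Fintype.card F = q ^ 2) (hn : 0 < n)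
    (Y : Matrix (Fin n) (Fin n) F) (c : F) (h : ∀ u v, hermForm n F q (Y *ᵥ u) (Y *ᵥ v) = c * hermForm n F q u v) :
    c ^ q = c := by
  classical
  have S := herm_space (F := F) n hF
  have hw := herm_single hF (⟨0, hn⟩ : Fin n) ⟨0, hn⟩
  rw [if_pos rfl] at hw
  have h3 := h (Pi.single ⟨0, hn⟩ 1) (Pi.single ⟨0, hn⟩ 1)
  rw [hw, mul_one] at h3
  rw [← h3]
  exact S.self_fix _

/-- The number of eigenvectors: comparison via non-degeneracy. -/
theorem card_le_of_sim (hF : Fintype.card F = q ^ 2) [DecidableEq F]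
    (P' P₀ : Matrix (Fin n) (Fin n) F)
    (h1 : P' * P₀ = 1) (h2 : P₀ * P' = 1) (d : Fin n → F) (hd : ∀ i, d i ^ q = d i) (μ : F)
    (hμ : ∀ u v, hermForm n F q ((P' * Matrix.diagonal d * P₀) *ᵥ u) ((P' * Matrix.diagonal d * P₀) *ᵥ v) =
      μ * hermForm n F q u v)
    (a b : F) (ha : a ≠ 0) (hab : a * b = μ) :
    (Finset.univ.filter fun i => d i = a).card ≤ (Finset.univ.filter fun i => d i = b).card := by
  classical
  have S := herm_space (F := F) n hF
  let A := Finset.univ.filter fun i => d i = a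
  let T := Finset.univ.filter fun i => d i = b
  let w : Fin n → (Fin n → F) := fun i => P' *ᵥ (Pi.single i 1)
  have hYw : ∀ i, (P' * Matrix.diagonal d * P₀) *ᵥ w i = d i • w i := by
    intro i
    simp only [w]
    rw [Matrix.mulVec_mulVec, Matrix.mul_assoc, Matrix.mul_assoc, h2, Matrix.mul_one,
      ← Matrix.mulVec_mulVec, ← Matrix.mulVec_smul]
    congr 1
    ext j
    by_cases hj : j = i
    · subst hj
      simp [Matrix.mulVec_diagonal]
    · simp [Matrix.mulVec_diagonal, hj]
  have hzero : ∀ i ∈ A, ∀ j, j ∉ T → hermForm n F q (w i) (w j) = 0 := by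
    intro i hi j hj
    have hi' : d i = a := (Finset.mem_filter.1 hi).2
    have hj' : d j ≠ b := fun h => hj (Finset.mem_filter.2 ⟨Finset.mem_univ _, h⟩)
    have h3 := hμ (w i) (w j)
    rw [hYw, hYw, S.smul_left, S.smul_right hF, hi', hd] at h3
    have hne : a * d j - μ ≠ 0 := by
      rw [← hab, ← mul_sub]
      exact mul_ne_zero ha (sub_ne_zero.2 hj')
    have h4 : (a * d j - μ) * hermForm n F q (w i) (w j) = 0 := by linear_combination h3
    exact (mul_eq_zero.1 h4).resolve_left hne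
  have hli : LinearIndependent F (fun i : A => (fun j : T => hermForm n F q (w i.1) (w j.1))) := by
    rw [Fintype.linearIndependent_iff]
    intro g hg i₀
    let v : Fin n → F := ∑ i : A, g i • w i.1
    have hexpand : ∀ (s : Finset A) (y : Fin n → F), hermForm n F q (∑ i ∈ s, g i • w i.1) y =
        ∑ i ∈ s, g i * hermForm n F q (w i.1) y := by
      intro s y
      induction s using Finset.induction_on with
      | empty => simp [S.zero_left]
      | insert j s hj ih => rw [Finset.sum_insert hj, Finset.sum_insert hj, S.add_left, S.smul_left, ih]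
    have hvj : ∀ j, hermForm n F q v (w j) = 0 := by
      intro j
      by_cases hj : j ∈ T
      · have h3 := congrFun hg ⟨j, hj⟩
        simp only [Finset.sum_apply, Pi.smul_apply, smul_eq_mul, Pi.zero_apply] at h3
        simp only [v]
        rw [hexpand]
        exact h3
      · simp only [v]
        rw [hexpand]
        refine Finset.sum_eq_zero fun i _ => ?_
        rw [hzero i.1 i.2 j hj, mul_zero]
    have hv0 : v = 0 := by
      apply S.nd
      intro y
      -- expand `y` in the basis `w`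
      have hy : y = ∑ j, (P₀ *ᵥ y) j • w j := by
        have h5 : P' *ᵥ (P₀ *ᵥ y) = y := by
          rw [Matrix.mulVec_mulVec, h1, Matrix.one_mulVec]
        conv_lhs => rw [← h5]
        have h6 : P₀ *ᵥ y = ∑ j, (P₀ *ᵥ y) j • Pi.single j (1 : F) := by
          ext k
          simp [Finset.sum_apply, Pi.single_apply]
        conv_lhs => rw [h6]
        rw [Matrix.mulVec_sum]
        refine Finset.sum_congr rfl fun j _ => ?_
        rw [Matrix.mulVec_smul]
      have hexp2 : ∀ (s : Finset (Fin n)), hermForm n F q v (∑ j ∈ s, (P₀ *ᵥ y) j • w j) = 0 := by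
        intro s
        induction s using Finset.induction_on with
        | empty => simp [S.zero_right hF]
        | insert j s hj ih =>
          rw [Finset.sum_insert hj, S.add_right hF, S.smul_right hF, ih, hvj, mul_zero, add_zero]
      rw [hy]
      exact hexp2 _
    have h6 := congrArg (fun t => (P₀ *ᵥ t) i₀.1) hv0
    simp only [v, w, Matrix.mulVec_zero, Pi.zero_apply] at h6
    rw [Matrix.mulVec_sum] at h6
    simp only [Matrix.mulVec_smul, Matrix.mulVec_mulVec, h2, Matrix.one_mulVec, Finset.sum_apply,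
      Pi.smul_apply, smul_eq_mul] at h6
    rw [Finset.sum_eq_single i₀] at h6
    · simpa using h6
    · intro i _ hne
      have : i₀.1 ≠ i.1 := fun h => hne (Subtype.ext h.symm)
      simp [this]
    · simp
  have h7 := hli.fintype_card_le_finrank
  simpa using h7

end Cfsg.Agent.Lib.ElusU.Base
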