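import Mathlib
import Cfsg.Agent.Lib.ElusU.Base

/-!
# The index of the similarity group of a unitary form in `SL_n(q₀²)`
-/

set_option autoImplicit false
set_option linter.style.haveILetI false
set_option linter.unusedSectionVars false
set_option linter.unusedSimpArgs false

namespace Cfsg.Agent.Lib.ElusU.Index

open Module Matrix Cfsg Cfsg.Geo
open Cfsg.Agent.Lib.HermCount.Field Cfsg.Agent.Lib.HermCount.Space
open Cfsg.Agent.Lib.ElusU.Base
open scoped MatrixGroups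

variable {F : Type*} [Field F] [Fintype F] {n q : ℕ}

/-- The index gives a divisibility of orders. -/
theorem card_mul_dvd (hF : Fintype.card F = q ^ 2) {f : (Fin n → F) → (Fin n → F) → F} (hf : IsUnitaryFormPow q f)
    {r : ℕ} (hr : r ∣ (similarityGroup f).relIndex (specialLinear (Fin n) F)) :
    r * Nat.card ↥(GU n F q ⊓ specialLinear (Fin n) F) ∣ Nat.card (specialLinear (Fin n) F) := by
  classical
  obtain ⟨Ψ, hΨ⟩ := exists_coord hF hf
  set S := specialLinear (Fin n) F with hS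
  let K : Subgroup S := (similarityGroup f).subgroupOf S
  have hK : Nat.card K * K.index = Nat.card S := Subgroup.card_mul_index K
  have hΨ2 : (Ψ : Matrix (Fin n) (Fin n) F) * ((Ψ⁻¹ : GL (Fin n) F) : Matrix (Fin n) (Fin n) F) = 1 := by
    rw [← Units.val_mul, mul_inv_cancel, Units.val_one]
  have hmem : ∀ g : ↥(GU n F q ⊓ S), Ψ * g.1 * Ψ⁻¹ ∈ similarityGroup f := by
    intro g
    refine ⟨1, fun u v => ?_⟩
    have hg : ∀ x y, hermForm n F q ((g.1 : Matrix (Fin n) (Fin n) F) *ᵥ x) ((g.1 : Matrix (Fin n) (Fin n) F) *ᵥ y) =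
        hermForm n F q x y := g.2.1
    have h1 := hg (((Ψ⁻¹ : GL (Fin n) F) : Matrix (Fin n) (Fin n) F) *ᵥ u)
      (((Ψ⁻¹ : GL (Fin n) F) : Matrix (Fin n) (Fin n) F) *ᵥ v)
    rw [← hΨ, ← hΨ] at h1
    simp only [Matrix.mulVec_mulVec, hΨ2, Matrix.one_mulVec] at h1
    rw [Units.val_mul, Units.val_mul, Units.val_one, one_mul]
    simpa only [Matrix.mulVec_mulVec, Matrix.mul_assoc] using h1
  let φ : ↥(GU n F q ⊓ S) →* K :=
    { toFun := fun g => ⟨⟨Ψ * g.1 * Ψ⁻¹, mem_sl_conj Ψ g.1 g.2.2⟩, hmem g⟩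
      map_one' := by
        apply Subtype.ext
        apply Subtype.ext
        simp
      map_mul' := fun a b => by
        apply Subtype.ext
        apply Subtype.ext
        simp only [Subgroup.coe_mul]
        group }
  have hφ : Function.Injective φ := by
    intro a b hab
    have h1 : Ψ * a.1 * Ψ⁻¹ = Ψ * b.1 * Ψ⁻¹ := by
      have := congrArg (fun x : K => ((x : S) : GL (Fin n) F)) hab
      exact this
    apply Subtype.ext
    simpa using h1
  have hdvd := Subgroup.card_dvd_of_injective φ hφ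
  rw [← hK]
  have hidx : K.index = (similarityGroup f).relIndex S := rfl
  rw [mul_comm r, hidx]
  exact Nat.mul_dvd_mul hdvd hr

/-- `SU_n` in `GL_n`. -/
theorem card_SU_eq : Nat.card (SU n F q) = Nat.card ↥(GU n F q ⊓ specialLinear (Fin n) F) := by
  classical
  refine Nat.card_congr ⟨fun x => ⟨Matrix.SpecialLinearGroup.toGL x.1, ?_, ?_⟩, fun g => ⟨⟨g.1.1, ?_⟩, ?_⟩, ?_, ?_⟩
  · have hx : ∀ u v, hermForm n F q ((x.1 : Matrix (Fin n) (Fin n) F) *ᵥ u) ((x.1 : Matrix (Fin n) (Fin n) F) *ᵥ v) =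
        hermForm n F q u v := x.2
    exact hx
  · change Matrix.GeneralLinearGroup.det _ = 1
    ext
    exact x.1.2
  · have h1 : Matrix.GeneralLinearGroup.det g.1 = 1 := g.2.2
    have h3 := congrArg Units.val h1
    simpa using h3
  · have hg : ∀ u v, hermForm n F q ((g.1 : Matrix (Fin n) (Fin n) F) *ᵥ u) ((g.1 : Matrix (Fin n) (Fin n) F) *ᵥ v) =
        hermForm n F q u v := g.2.1
    exact hg
  · intro x
    rfl
  · intro g
    apply Subtype.ext
    apply Units.ext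
    rfl

/-- The two kinds of factors. -/
def aF (q i : ℕ) : ℕ := if Even i then q ^ (i + 1) + 1 else q ^ (i + 1) - 1

def cF (q i : ℕ) : ℕ := if Even i then q ^ (i + 1) - 1 else q ^ (i + 1) + 1

theorem aF_mul_cF (q i : ℕ) (hq : 1 ≤ q) : aF q i * cF q i = (q ^ 2) ^ (i + 1) - 1 := by
  have h1 : 1 ≤ q ^ (i + 1) := Nat.one_le_pow _ _ (by omega)
  have h2 : (q ^ 2) ^ (i + 1) = q ^ (i + 1) * q ^ (i + 1) := by
    rw [← pow_mul, mul_comm 2, pow_mul, pow_two]
  rw [h2]
  obtain ⟨t, ht⟩ : ∃ t, q ^ (i + 1) = t + 1 := ⟨q ^ (i + 1) - 1, by omega⟩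
  unfold aF cF
  split_ifs <;> rw [ht] <;> simp only [Nat.add_sub_cancel] <;>
    · have : (t + 1) * (t + 1) = t * (t + 1 + 1) + 1 := by ring
      rw [this]
      simp only [Nat.add_sub_cancel]
      try ring

theorem aF_pos (q i : ℕ) (hq : 2 ≤ q) : 0 < aF q i := by
  unfold aF
  have h1 : 1 < q ^ (i + 1) := Nat.one_lt_pow (by omega) (by omega)
  split_ifs <;> omega

/-- Cancellation of the common factors. -/
theorem arith_main {q r S U M N : ℕ} (hq : 2 ≤ q) (n : ℕ)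
    (hS : (q ^ 2 - 1) * S = (q ^ 2) ^ N * ∏ j ∈ Finset.range (n + 1), ((q ^ 2) ^ (j + 1) - 1))
    (hU : (q + 1) * U = q ^ M * ∏ i ∈ Finset.range (n + 1), aF q i)
    (hdvd : r * U ∣ S) :
    r ∣ (q ^ 2) ^ N * ∏ j ∈ Finset.range n, cF q (j + 1) := by
  obtain ⟨w, hw⟩ := hdvd
  set PA := ∏ i ∈ Finset.range (n + 1), aF q i with hPA
  set D := ∏ j ∈ Finset.range n, cF q (j + 1) with hD
  have hprod : ∏ j ∈ Finset.range (n + 1), ((q ^ 2) ^ (j + 1) - 1) = PA * ((q - 1) * D) := by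
    have h1 : ∏ j ∈ Finset.range (n + 1), ((q ^ 2) ^ (j + 1) - 1) =
        PA * ∏ j ∈ Finset.range (n + 1), cF q j := by
      rw [hPA, ← Finset.prod_mul_distrib]
      exact Finset.prod_congr rfl fun i _ => (aF_mul_cF q i (by omega)).symm
    rw [h1, Finset.prod_range_succ']
    have h0 : cF q 0 = q - 1 := by
      simp [cF]
    rw [h0, mul_comm (∏ j ∈ Finset.range n, cF q (j + 1))]
  have hfac : q ^ 2 - 1 = (q - 1) * (q + 1) := by
    obtain ⟨t, ht⟩ : ∃ t, q = t + 1 := ⟨q - 1, by omega⟩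
    subst ht
    simp only [Nat.add_sub_cancel]
    have : (t + 1) ^ 2 = t * (t + 1 + 1) + 1 := by ring
    omega
  rw [hprod, hfac, hw] at hS
  have hPApos : 0 < PA := Finset.prod_pos fun i _ => aF_pos q i hq
  have hq1 : 0 < q - 1 := by omega
  have h3 : ((q - 1) * PA) * (r * w * q ^ M) = ((q - 1) * PA) * ((q ^ 2) ^ N * D) := by
    calc ((q - 1) * PA) * (r * w * q ^ M) = (q - 1) * (r * w) * (q ^ M * PA) := by ring
      _ = (q - 1) * (r * w) * ((q + 1) * U) := by rw [hU]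
      _ = (q - 1) * (q + 1) * (r * U * w) := by ring
      _ = (q ^ 2) ^ N * (PA * ((q - 1) * D)) := hS
      _ = _ := by ring
  have h4 := Nat.eq_of_mul_eq_mul_left (Nat.mul_pos hq1 hPApos) h3
  exact ⟨w * q ^ M, by rw [← h4]; ring⟩

/-- The arithmetic consequence of the index. -/
theorem exists_factor {p : ℕ} [hp : Fact p.Prime] [CharP F p] (hF : Fintype.card F = q ^ 2)
    {f : (Fin n → F) → (Fin n → F) → F} (hf : IsUnitaryFormPow q f) (hn : 0 < n)
    {r : ℕ} [hr : Fact r.Prime] (hrp : r ≠ p)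
    (hΩ : r ∣ (similarityGroup f).relIndex (specialLinear (Fin n) F)) :
    ∃ l, 0 < l ∧ l ≤ n ∧ ((Odd l ∧ r ∣ q ^ l - 1) ∨ (Even l ∧ r ∣ q ^ l + 1)) := by
  classical
  have hq2 := two_le hF
  have hrq : ¬ r ∣ q ^ 2 := Cfsg.Agent.Lib.Elusive.OrderRank.not_dvd_card hF hr.out hrp
  have h1 := card_mul_dvd hF hf hΩ
  rw [← card_SU_eq] at h1
  have hS := Cfsg.Agent.Lib.FGStruct.GoE.card_sl (n := n) hF hn
  have hU := Cfsg.Agent.Lib.Classical.HermOrders.card_SU (q := q) hF n hn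
  obtain ⟨m, rfl⟩ : ∃ m, n = m + 1 := ⟨n - 1, by omega⟩
  have h2 := arith_main (M := (m + 1) * (m + 1 - 1) / 2) (N := (m + 1) * (m + 1 - 1) / 2) hq2 m hS hU h1
  rcases (Nat.Prime.dvd_mul hr.out).1 h2 with h | h
  · exact absurd (hr.out.dvd_of_dvd_pow h) hrq
  · obtain ⟨j, hj, hd⟩ := (Prime.dvd_finsetProd_iff hr.out.prime _).1 h
    have hj' := Finset.mem_range.1 hj
    refine ⟨j + 1 + 1, by omega, by omega, ?_⟩
    unfold cF at hd
    split_ifs at hd with hev
    · left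
      exact ⟨Even.add_one hev, hd⟩
    · right
      refine ⟨?_, hd⟩
      rw [Nat.even_add_one]
      exact hev

/-- The order of `q` modulo `r`. -/
theorem order_facts {q r l : ℕ} [hr : Fact r.Prime] (hr2 : r ≠ 2) (hq : 1 ≤ q)
    (hl : (Odd l ∧ r ∣ q ^ l - 1) ∨ (Even l ∧ r ∣ q ^ l + 1)) :
    orderOf (q : ZMod r) % 4 ≠ 2 ∧ orderOf ((q ^ 2 : ℕ) : ZMod r) ∣ l := by
  have hne := Cfsg.Agent.Lib.ElusF.HzArith.neg_ne_one (r := r) hr2
  have hq1 : 1 ≤ q ^ l := Nat.one_le_pow _ _ (by omega)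
  rcases hl with ⟨hodd, hd⟩ | ⟨hev, hd⟩
  · have h1 : (q : ZMod r) ^ l = 1 := by
      have h2 : ((q ^ l - 1 : ℕ) : ZMod r) = 0 := (ZMod.natCast_eq_zero_iff _ _).2 hd
      rw [Nat.cast_sub hq1, sub_eq_zero] at h2
      simpa using h2
    constructor
    · have h3 := orderOf_dvd_of_pow_eq_one h1
      have h4 : Odd (orderOf (q : ZMod r)) := Odd.of_dvd_nat hodd h3
      obtain ⟨t, ht⟩ := h4
      omega
    · apply orderOf_dvd_of_pow_eq_one
      push_cast
      rw [← pow_mul, mul_comm, pow_mul, h1, one_pow]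
  · have h1 : (q : ZMod r) ^ l = -1 := by
      have h2 : ((q ^ l + 1 : ℕ) : ZMod r) = 0 := (ZMod.natCast_eq_zero_iff _ _).mpr hd
      push_cast at h2
      linear_combination h2
    have h3 : (q : ZMod r) ^ (l * 2) = 1 := by
      rw [pow_mul, h1]
      ring
    constructor
    · intro hmod
      obtain ⟨l', hl'⟩ := even_iff_two_dvd.mp hev
      have h4 := orderOf_dvd_of_pow_eq_one h3
      set o := orderOf (q : ZMod r) with ho
      obtain ⟨c, hc⟩ : ∃ c, o = 2 * (2 * c + 1) := ⟨o / 4, by omega⟩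
      have h5 : (2 * c + 1) ∣ l := by
        have h6 : 2 * (2 * c + 1) ∣ 2 * l := by
          rw [← hc, mul_comm 2 l]
          exact h4
        exact Nat.dvd_of_mul_dvd_mul_left (by norm_num) h6
      have h6 : o ∣ l := by
        rw [hc]
        have hco : Nat.Coprime 2 (2 * c + 1) := by
          rw [Nat.coprime_two_left]
          exact odd_two_mul_add_one c
        exact hco.mul_dvd_of_dvd_of_dvd (even_iff_two_dvd.mp hev) h5
      have h7 : (q : ZMod r) ^ l = 1 := orderOf_dvd_iff_pow_eq_one.mp h6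
      rw [h1] at h7
      exact hne h7
    · apply orderOf_dvd_of_pow_eq_one
      push_cast
      rw [← pow_mul, mul_comm]
      exact h3

/-- If `r ∤ q - 1` then `r ∤ q² - 1`. -/
theorem not_dvd_sq {q r : ℕ} [hr : Fact r.Prime] (hr2 : r ≠ 2) (hq : 2 ≤ q)
    (hi : orderOf (q : ZMod r) % 4 ≠ 2) (h1 : ¬ r ∣ q - 1) : ¬ r ∣ q ^ 2 - 1 := by
  intro h
  have hfac : q ^ 2 - 1 = (q - 1) * (q + 1) := by
    obtain ⟨t, ht⟩ : ∃ t, q = t + 1 := ⟨q - 1, by omega⟩
    subst ht
    simp only [Nat.add_sub_cancel]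
    have : (t + 1) ^ 2 = t * (t + 1 + 1) + 1 := by ring
    omega
  rw [hfac] at h
  rcases (Nat.Prime.dvd_mul hr.out).1 h with h | h
  · exact h1 h
  · have h3 := (Cfsg.Agent.Lib.ElusF.HzArith.dvd_succ_iff hr2).1 h
    rw [h3] at hi
    exact hi rfl

end Cfsg.Agent.Lib.ElusU.Index
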