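import Mathlib
import Cfsg.Agent.Lib.ElusU.Base

/-!
# Elements of `SL_n(q₀²)` with no conjugate among similarities of a unitary form
-/

set_option autoImplicit false
set_option linter.style.haveILetI false
set_option linter.unusedSectionVars false
set_option linter.unusedSimpArgs false

namespace Cfsg.Agent.Lib.ElusU.Neg

open Module Matrix Polynomial Cfsg Cfsg.Geo
open Cfsg.Agent.Lib.HermCount.Field Cfsg.Agent.Lib.HermCount.Space Cfsg.Agent.Lib.HermCount.Lines
open Cfsg.Agent.Lib.ElusU.Base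
open Cfsg.Agent.Lib.FGStruct.GoB (exists_primitive)
open Cfsg.Agent.Lib.FGStruct.GoC (dPat count_dPat prod_dPat diag_pow diag_ns count_one prod_one conj_pow_mat)
open Cfsg.Agent.Lib.FGStruct.GoD (rF_ne rank_conj)
open Cfsg.Agent.Lib.Elusive
open scoped MatrixGroups

variable {F : Type*} [Field F] [Fintype F] {n q : ℕ}

theorem dPat_frob {a b c : F} (ha : a ^ q = a) (hb : b ^ q = b) (hc : c ^ q = c) (k : ℕ) :
    dPat a b c k ^ q = dPat a b c k := by
  simp only [dPat]
  split_ifs <;> simp [ha, hb, hc]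

/-- The case `r = 3`, `n ≠ 3, 6`. -/
theorem case_three (hF : Fintype.card F = q ^ 2) (hn : 4 ≤ n) (hn6 : n ≠ 6)
    (ζ : F) (hζ : ζ ^ 3 = 1) (hζ1 : ζ ≠ 1) (hζq : ζ ^ q = ζ) : ¬ Elus (hermForm n F q) 3 := by
  classical
  have hq0 : q ≠ 0 := by
    have := two_le hF
    omega
  have hζ0 : ζ ≠ 0 := by
    rintro rfl
    simp at hζ
  refine not_elus_of_matrix 3 (Matrix.diagonal fun i : Fin n => dPat ζ ζ ζ i.val) ?_ 1 ?_ ?_ ?_
  · rw [Matrix.det_diagonal, prod_dPat ζ ζ ζ (by omega), ← hζ]
    ring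
  · apply diag_pow
    intro i
    simp only [dPat]
    split_ifs <;> simp [hζ]
  · exact diag_ns _ ⟨0, by omega⟩ ⟨3, by omega⟩ (by simpa [dPat] using hζ1)
  · intro P' P₀ μ hμ0 h3 h4 hμ
    have hcount := fun t : F => count_dPat (n := n) ζ ζ ζ t (by omega)
    have hle := fun (a b : F) (ha : a ≠ 0) (hab : a * b = μ) =>
      card_le_of_sim hF P' P₀ h3 h4 _ (fun i => dPat_frob hζq hζq hζq _) μ hμ a b ha hab
    simp only [hcount] at hle
    set b := μ * ζ⁻¹ with hb
    have hb0 : b ≠ 0 := mul_ne_zero hμ0 (inv_ne_zero hζ0)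
    have h5 := hle ζ b hζ0 (by rw [hb]; field_simp)
    have h6 := hle b ζ hb0 (by rw [hb]; field_simp)
    have hne1 : (1 : F) ≠ ζ := Ne.symm hζ1
    by_cases hbζ : ζ = b
    · -- `μ = ζ²`
      have hμ2 : μ = ζ * ζ := by
        rw [hb] at hbζ
        field_simp at hbζ
        rw [← hbζ]
        ring
      have h7 := hle 1 (ζ * ζ) one_ne_zero (by rw [hμ2, one_mul])
      have h8 : ζ ≠ ζ * ζ := by
        intro h
        apply hζ1
        apply mul_left_cancel₀ hζ0
        rw [mul_one]
        exact h.symm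
      have h9 : (1 : F) ≠ ζ * ζ := by
        intro h
        apply hζ1
        calc ζ = ζ * 1 := (mul_one ζ).symm
          _ = ζ * (ζ * ζ) := by rw [← h]
          _ = ζ ^ 3 := by ring
          _ = 1 := hζ
      simp only [h8, h9, if_false, if_true] at h7
      omega
    · simp only [hbζ, hne1, if_false, if_true] at h5 h6
      by_cases h1b : (1 : F) = b
      · simp only [h1b, if_true] at h5 h6
        omega
      · simp only [h1b, if_false] at h5
        omega

/-- The case `r ≥ 5`, `(n, r) ≠ (5, 5)`. -/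
theorem case_five (hF : Fintype.card F = q ^ 2) (hn : 3 ≤ n)
    (r : ℕ) (ζ : F) (hζ : ζ ^ r = 1) (hr : ∀ k, ζ ^ k = 1 → r ∣ k) (hr5 : r.Prime) (hr6 : 5 ≤ r)
    (hgap : ¬ (n = 5 ∧ r = 5)) (hζq : ζ ^ q = ζ) : ¬ Elus (hermForm n F q) r := by
  classical
  have hq0 : q ≠ 0 := by
    have := two_le hF
    omega
  have hζ0 : ζ ≠ 0 := by
    rintro rfl
    rw [zero_pow hr5.ne_zero] at hζ
    exact zero_ne_one hζ
  have hnd : ∀ k, 0 < k → k < 5 → ζ ^ k ≠ 1 := by
    intro k hk0 hk5 h
    have := Nat.le_of_dvd hk0 (hr k h)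
    omega
  have hnd6 : ζ ^ 6 ≠ 1 := by
    intro h
    have h1 := hr 6 h
    have h2 : r ≤ 6 := Nat.le_of_dvd (by norm_num) h1
    interval_cases r
    · omega
    · exact absurd hr5 (by norm_num)
  have hζ1 : ζ ≠ 1 := by
    have := hnd 1 (by norm_num) (by norm_num)
    simpa using this
  let c : F := (ζ⁻¹) ^ 2
  have hc : c * ζ ^ 2 = 1 := by
    simp only [c]
    field_simp
  have hc0 : c ≠ 0 := by
    simp only [c]
    exact pow_ne_zero _ (inv_ne_zero hζ0)
  have hcr : c ^ r = 1 := by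
    simp only [c]
    rw [← pow_mul, mul_comm, pow_mul, inv_pow, hζ, inv_one, one_pow]
  have hcq : c ^ q = c := by
    simp only [c]
    rw [← pow_mul, mul_comm, pow_mul, inv_pow, hζq]
  have hcζ : c ≠ ζ := by
    intro h
    apply hnd 3 (by norm_num) (by norm_num)
    rw [← hc, h]
    ring
  have hc1 : c ≠ 1 := by
    intro h
    apply hnd 2 (by norm_num) (by norm_num)
    rw [h, one_mul] at hc
    exact hc
  refine not_elus_of_matrix r (Matrix.diagonal fun i : Fin n => dPat ζ ζ c i.val) ?_ 1 ?_ ?_ ?_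
  · rw [Matrix.det_diagonal, prod_dPat ζ ζ c hn, ← hc]
    ring
  · apply diag_pow
    intro i
    simp only [dPat]
    split_ifs <;> simp [hζ, hcr]
  · exact diag_ns _ ⟨0, by omega⟩ ⟨2, by omega⟩ (by simpa [dPat] using hcζ.symm)
  · intro P' P₀ μ hμ0 h3 h4 hμ
    have hcount := fun t : F => count_dPat (n := n) ζ ζ c t hn
    have hle := fun (a b : F) (ha : a ≠ 0) (hab : a * b = μ) =>
      card_le_of_sim hF P' P₀ h3 h4 _ (fun i => dPat_frob hζq hζq hcq _) μ hμ a b ha hab
    simp only [hcount] at hle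
    set b := μ * ζ⁻¹ with hb
    have hb0 : b ≠ 0 := mul_ne_zero hμ0 (inv_ne_zero hζ0)
    have h5 := hle ζ b hζ0 (by rw [hb]; field_simp)
    have h6 := hle b ζ hb0 (by rw [hb]; field_simp)
    have hne1 : (1 : F) ≠ ζ := Ne.symm hζ1
    by_cases hbζ : ζ = b
    · -- `μ = ζ²`
      have hμ2 : μ = ζ ^ 2 := by
        rw [hb] at hbζ
        field_simp at hbζ
        rw [← hbζ]
      have h7 := hle c (ζ ^ 4) hc0 (by rw [hμ2, show ζ ^ 4 = ζ ^ 2 * ζ ^ 2 by ring, ← mul_assoc, hc, one_mul])
      have h41 : ζ ≠ ζ ^ 4 := by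
        intro h
        apply hnd 3 (by norm_num) (by norm_num)
        have h8 : ζ * (ζ ^ 3 - 1) = 0 := by linear_combination -h
        exact sub_eq_zero.1 ((mul_eq_zero.1 h8).resolve_left hζ0)
      have h42 : c ≠ ζ ^ 4 := by
        intro h
        apply hnd6
        rw [← hc, h]
        ring
      have h43 : (1 : F) ≠ ζ ^ 4 := (hnd 4 (by norm_num) (by norm_num)).symm
      have hcζ' : ζ ≠ c := Ne.symm hcζ
      have h1c : (1 : F) ≠ c := Ne.symm hc1
      simp only [hcζ', h1c, h41, h42, h43, if_true, if_false] at h7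
      omega
    · simp only [hbζ, hcζ, hne1, if_false, if_true] at h5 h6
      by_cases h1b : (1 : F) = b
      · -- `b = 1`, `n = 5`, `μ = ζ`
        have hcb : c ≠ b := fun h => hc1 (h.trans h1b.symm)
        simp only [h1b, hcb, if_true, if_false] at h5 h6
        have hn5 : n = 5 := by omega
        have hμ1 : μ = ζ := by
          rw [hb] at h1b
          field_simp at h1b
          exact h1b.symm
        have hr5' : r ≠ 5 := fun h => hgap ⟨hn5, h⟩
        have hr7 : ζ ^ 5 ≠ 1 := by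
          intro h
          have h8 := hr 5 h
          have h9 := (Nat.prime_dvd_prime_iff_eq hr5 (by norm_num)).1 h8
          exact hr5' h9
        have h7 := hle c (ζ ^ 3) hc0 (by
          rw [hμ1]
          calc c * ζ ^ 3 = (c * ζ ^ 2) * ζ := by ring
            _ = ζ := by rw [hc, one_mul])
        have h41 : ζ ≠ ζ ^ 3 := by
          intro h
          apply hnd 2 (by norm_num) (by norm_num)
          have h8 : ζ * (ζ ^ 2 - 1) = 0 := by linear_combination -h
          exact sub_eq_zero.1 ((mul_eq_zero.1 h8).resolve_left hζ0)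
        have h42 : c ≠ ζ ^ 3 := by
          intro h
          apply hr7
          rw [← hc, h]
          ring
        have h43 : (1 : F) ≠ ζ ^ 3 := (hnd 3 (by norm_num) (by norm_num)).symm
        have hcζ' : ζ ≠ c := Ne.symm hcζ
        have h1c : (1 : F) ≠ c := Ne.symm hc1
        simp only [hcζ', h1c, h41, h42, h43, if_true, if_false] at h7
        omega
      · simp only [h1b, if_false] at h5
        by_cases h7 : c = b
        · simp only [h7, if_true] at h5
          omega
        · simp only [h7, if_false] at h5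
          omega

/-- The case `n = r` and `r² ∣ q - 1`. -/
theorem case_top (hF : Fintype.card F = q ^ 2) {r : ℕ} (hr : r.Prime) (hr2 : r ≠ 2) (hrq : r * r ∣ q - 1)
    (hq1 : q - 1 ≠ 0) : ¬ Elus (hermForm r F q) r := by
  classical
  have hq0 : q ≠ 0 := by
    have := two_le hF
    omega
  obtain ⟨a, ha⟩ : ∃ a : F, IsPrimitiveRoot a (r * r) := by
    refine exists_primitive hF ?_ ?_
    · refine hrq.trans ?_
      have h1 : 1 ≤ q := by omega
      obtain ⟨t, ht⟩ : ∃ t, q = t + 1 := ⟨q - 1, by omega⟩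
      subst ht
      refine ⟨t + 2, ?_⟩
      simp only [Nat.add_sub_cancel]
      have : (t + 1) ^ 2 = t * (t + 2) + 1 := by ring
      omega
    · have := two_le hF
      have h1 : 1 < q ^ 2 := Nat.one_lt_pow (by norm_num) (by omega)
      omega
  have ha0 : a ≠ 0 := ha.ne_zero (mul_ne_zero hr.ne_zero hr.ne_zero)
  have haq : a ^ q = a := by
    obtain ⟨t, ht⟩ := hrq
    have h1 : q = (q - 1) + 1 := by omega
    rw [h1, pow_succ]
    have h2 : a ^ (q - 1) = 1 := by
      rw [ht, pow_mul, ha.pow_eq_one, one_pow]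
    simp [h2]
  set ω := a ^ r with hω
  have hω0 : ω ≠ 0 := pow_ne_zero _ ha0
  have hωr : ω ^ r = 1 := by
    rw [hω, ← pow_mul, ha.pow_eq_one]
  have hωq : ω ^ q = ω := by
    rw [hω, ← pow_mul, mul_comm, pow_mul, haq]
  have hω1 : ω ≠ 1 := by
    intro h
    have h3 := ha.dvd_of_pow_eq_one r h
    have h4 := Nat.le_of_dvd hr.pos h3
    have h5 := hr.two_le
    nlinarith
  have hω2 : ω * ω ≠ 1 := by
    intro h
    have h3 : a ^ (r * 2) = 1 := by
      rw [pow_mul, ← hω, pow_two, h]
    have h4 := ha.dvd_of_pow_eq_one _ h3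
    have h5 : r ∣ 2 := Nat.dvd_of_mul_dvd_mul_left hr.pos h4
    exact hr2 ((Nat.prime_dvd_prime_iff_eq hr Nat.prime_two).1 h5)
  let i₀ : Fin r := ⟨0, hr.pos⟩
  let i₁ : Fin r := ⟨1, hr.one_lt⟩
  let e : F := a * ω⁻¹
  have he0 : e ≠ 0 := mul_ne_zero ha0 (inv_ne_zero hω0)
  have heq : e ^ q = e := by
    simp only [e]
    rw [mul_pow, inv_pow, haq, hωq]
  have hea : e ≠ a := by
    intro h
    apply hω1
    have h3 : a * ω⁻¹ = a * 1 := by rw [mul_one]; exact h
    have h4 := mul_left_cancel₀ ha0 h3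
    exact inv_eq_one.mp h4
  refine not_elus_of_matrix r (Matrix.diagonal fun i : Fin r => if i = i₀ then e else a) ?_ ω ?_ ?_ ?_
  · rw [Matrix.det_diagonal, prod_one]
    have h3 : a * a ^ (r - 1) = ω := by
      rw [hω, ← pow_succ']
      congr 1
      have := hr.pos
      omega
    calc e * a ^ (r - 1) = ω⁻¹ * (a * a ^ (r - 1)) := by
          simp only [e]
          ring
      _ = 1 := by rw [h3, inv_mul_cancel₀ hω0]
  · apply diag_pow
    intro i
    by_cases hi : i = i₀
    · simp only [hi, if_true, e]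
      rw [mul_pow, inv_pow, hωr, inv_one, mul_one]
    · simp only [hi, if_false]
      rfl
  · refine diag_ns _ i₀ i₁ ?_
    have h : i₁ ≠ i₀ := by
      intro h
      have := congrArg Fin.val h
      simp [i₀, i₁] at this
    simpa [h] using hea
  · intro P' P₀ μ hμ0 h3 h4 hμ
    have hcount := fun t : F => count_one (n := r) i₀ a e t
    have hle := fun (s t : F) (hs : s ≠ 0) (hst : s * t = μ) =>
      card_le_of_sim hF P' P₀ h3 h4 _ (fun i => by
        by_cases hi : i = i₀
        · simp only [hi, if_true]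
          exact heq
        · simp only [hi, if_false]
          exact haq) μ hμ s t hs hst
    simp only [hcount] at hle
    have hr3 : 2 ≤ r - 1 := by
      have := hr.two_le
      omega
    -- the partner of `a`
    set b := μ * a⁻¹ with hb
    have h5 := hle a b ha0 (by rw [hb]; field_simp)
    have hab : a = b := by
      by_contra hne
      have h5' : r - 1 ≤ (if e = b then 1 else 0) := by
        simpa [hne, hea] using h5
      split_ifs at h5' <;> omega
    have hμ2 : μ = a * a := by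
      rw [hb] at hab
      field_simp at hab
      rw [← hab]
      ring
    have h6 := hle e (a * ω) he0 (by
      rw [hμ2]
      simp only [e]
      field_simp)
    have h7 : e ≠ a * ω := by
      intro h
      apply hω2
      simp only [e] at h
      have h8 : ω⁻¹ = ω := mul_left_cancel₀ ha0 h
      calc ω * ω = ω * ω⁻¹ := by rw [h8]
        _ = 1 := mul_inv_cancel₀ hω0
    have h8 : a ≠ a * ω := by
      intro h
      apply hω1
      have : a * 1 = a * ω := by rw [mul_one]; exact h
      exact (mul_left_cancel₀ ha0 this).symm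
    simp only [h7, h8, if_true, if_false] at h6
    omega

/-- Elements of order `r ∤ q² - 1`. -/
theorem case_block {p : ℕ} [hp : Fact p.Prime] [CharP F p] (hF : Fintype.card F = q ^ 2) (hn : 0 < n) {r : ℕ}
    [hr : Fact r.Prime] (hr2 : r ≠ 2) (hrp : r ≠ p) (hr1 : ¬ r ∣ q ^ 2 - 1)
    (hi : orderOf (q : ZMod r) % 4 ≠ 2) (hle : orderOf ((q ^ 2 : ℕ) : ZMod r) ≤ n) :
    ¬ Elus (hermForm n F q) r := by
  classical
  obtain ⟨x, hxr, hrank⟩ := OrderRank.exists_block_elt hF hrp hr1 (n := n) hle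
  have hrF := rF_ne (F := F) hr.out hrp
  have hrq : ¬ r ∣ q ^ 2 := OrderRank.not_dvd_card hF hr.out hrp
  have hrq0 : ¬ r ∣ q := fun h => hrq (h.trans (dvd_pow_self q two_ne_zero))
  have hipos : 0 < orderOf ((q ^ 2 : ℕ) : ZMod r) := Cfsg.Agent.Lib.ElusL.Cyc.ord_pos hr.out hrq
  refine not_elus_of_matrix r (x : Matrix (Fin n) (Fin n) F) x.2 1 (by rw [one_smul]; exact hxr) ?_ ?_
  · intro z hz0
    rw [hz0] at hxr hrank
    have hz : z ^ r = 1 := by
      have h3 := congrFun (congrFun hxr ⟨0, hn⟩) ⟨0, hn⟩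
      rw [_root_.smul_pow, one_pow, Matrix.smul_apply, Matrix.one_apply_eq, smul_eq_mul, mul_one] at h3
      exact h3
    have hz1 := CycConj.eq_one_of_pow_eq_one hF hr.out hr1 z hz
    rw [hz1, one_smul, sub_self, Matrix.rank_zero] at hrank
    omega
  · intro P' P₀ c hc0 h3 h4 hc
    set Y := P' * (x : Matrix (Fin n) (Fin n) F) * P₀ with hY
    have hYr : Y ^ r = 1 := by
      rw [hY, conj_pow_mat P' P₀ _ h3 h4, hxr, Matrix.mul_one, h3]
    have hc1 : c = 1 := CycConj.eq_one_of_pow_eq_one hF hr.out hr1 c (mu_pow hF hn Y c hc hYr)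
    subst hc1
    let T : End F (Fin n → F) := Matrix.toLin' Y
    have hT : Cfsg.Agent.Lib.ElusF.Form.Iso (hermForm n F q) T := by
      intro u v
      change hermForm n F q (Y *ᵥ u) (Y *ᵥ v) = _
      rw [hc, one_mul]
    have hTr : T ^ r = 1 := by
      simp only [T]
      rw [Cfsg.Agent.Lib.FGStruct.GoD.toLin_pow, hYr]
      exact Matrix.toLin'_one
    have hB := Cfsg.Agent.Lib.ElusF.HzBase.fm_std n hF
    have hnd := Cfsg.Agent.Lib.ElusF.Split.nd1 hB hT hrF hTr hB.nd_top (U := ⊤) (fun v _ => trivial)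
    have hsp := (Cfsg.Agent.Lib.ElusF.Split.split01 hrF hTr (U := ⊤) (fun v _ => trivial)).2
    rw [top_inf_eq] at hnd
    rw [top_inf_eq, top_inf_eq, finrank_top] at hsp
    set K := LinearMap.ker (Polynomial.aeval T (Cfsg.Agent.Lib.ElusL.Cyc.Phi F r)) with hK
    have hdvd := Cfsg.Agent.Lib.ElusF.HzTI.two_mul_dvd hF hB hT hTr hr.out hr2 hrF hrq0 hi (finrank F K) K rfl le_rfl
      hnd (Cfsg.Agent.Lib.ElusL.Basic.inv_ker _ _)
    have hfix : finrank F (LinearMap.ker (Polynomial.aeval T (Polynomial.X - 1 : F[X]))) + (Y - 1).rank = n := by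
      have h1 := LinearMap.finrank_range_add_finrank_ker (Y - 1).mulVecLin
      have h5 : LinearMap.ker (Polynomial.aeval T (Polynomial.X - 1 : F[X])) = LinearMap.ker (Y - 1).mulVecLin := by
        ext v
        rw [Cfsg.Agent.Lib.ElusF.Split.mem_fix, LinearMap.mem_ker, Matrix.mulVecLin_apply, Matrix.sub_mulVec,
          Matrix.one_mulVec, sub_eq_zero]
        rfl
      rw [Matrix.rank, h5]
      simp only [Module.finrank_fin_fun] at h1
      omega
    have hrk : (Y - 1).rank = orderOf ((q ^ 2 : ℕ) : ZMod r) := by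
      rw [hY, rank_conj _ _ _ h3 h4, hrank]
    simp only [Module.finrank_fin_fun] at hsp
    have hKd : finrank F K = orderOf ((q ^ 2 : ℕ) : ZMod r) := by omega
    rw [hKd] at hdvd
    have := Nat.le_of_dvd hipos hdvd
    omega

/-- Solving for a suitable scalar in the case of involutions. -/
theorem exists_scalar (hF : Fintype.card F = q ^ 2) {e : ℕ} (he : q = 2 * e + 1) {m : ℕ}
    (hm : 2 ^ padicValNat 2 (q ^ 2 - 1) ∣ m) :
    ∃ z : F, z ≠ 0 ∧ z ^ ((q + 1) * e) = -1 ∧ (-z) ^ m = 1 := by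
  classical
  have hq2 := two_le hF
  have hq1 : q ^ 2 - 1 ≠ 0 := by
    have h1 : 1 < q ^ 2 := Nat.one_lt_pow (by norm_num) (by omega)
    omega
  set v := padicValNat 2 (q ^ 2 - 1) with hv
  haveI : Fact (Nat.Prime 2) := ⟨Nat.prime_two⟩
  obtain ⟨t, ht⟩ : 2 ^ v ∣ q ^ 2 - 1 := pow_padicValNat_dvd
  have htodd : Odd t := by
    rw [← Nat.not_even_iff_odd]
    rintro ⟨s, hs⟩
    have h1 : 2 ^ (v + 1) ∣ q ^ 2 - 1 := ⟨s, by rw [ht, hs]; ring⟩
    exact pow_succ_padicValNat_not_dvd hq1 h1
  obtain ⟨γ, hγ⟩ := IsCyclic.exists_generator (α := Fˣ)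
  have hγo : orderOf γ = q ^ 2 - 1 := by
    rw [orderOf_eq_card_of_forall_mem_zpowers hγ, Nat.card_eq_fintype_card, Fintype.card_units, hF]
  set N := (q + 1) * e with hN
  have hNq : q ^ 2 - 1 = 2 * N := by
    subst he
    rw [hN]
    have : (2 * e + 1) ^ 2 = 2 * ((2 * e + 1 + 1) * e) + 1 := by ring
    omega
  have hNpos : 0 < N := by
    by_contra h
    have : N = 0 := by omega
    rw [this] at hNq
    omega
  have hγN : ((γ ^ N : Fˣ) : F) = -1 := by
    have h1 : (γ ^ N) ^ 2 = 1 := by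
      rw [← pow_mul, mul_comm, ← hNq, ← hγo, pow_orderOf_eq_one]
    have h3 : ((γ ^ N : Fˣ) : F) * ((γ ^ N : Fˣ) : F) = 1 := by
      rw [← Units.val_mul, ← pow_two, h1, Units.val_one]
    rcases mul_self_eq_one_iff.mp h3 with h4 | h4
    · exfalso
      have h5 : γ ^ N = 1 := Units.ext h4
      have h6 := orderOf_dvd_of_pow_eq_one h5
      rw [hγo, hNq] at h6
      have h7 := Nat.le_of_dvd hNpos h6
      omega
    · exact h4
  let w : F := ((γ ^ t : Fˣ) : F)
  have hwpow : w ^ (2 ^ v) = 1 := by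
    simp only [w]
    rw [← Units.val_pow_eq_pow_val, ← pow_mul, mul_comm, ← ht, ← hγo, pow_orderOf_eq_one, Units.val_one]
  have hw0 : w ≠ 0 := Units.ne_zero _
  have hNeven : Even N := by
    refine Even.mul_right ?_ _
    subst he
    exact ⟨e + 1, by ring⟩
  have hwN : w ^ N = -1 := by
    simp only [w]
    rw [← Units.val_pow_eq_pow_val, ← pow_mul, mul_comm, pow_mul, Units.val_pow_eq_pow_val, hγN,
      htodd.neg_one_pow]
  refine ⟨-w, neg_ne_zero.mpr hw0, ?_, ?_⟩
  · rw [neg_pow, hNeven.neg_one_pow, one_mul, hwN]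
  · obtain ⟨s, hs⟩ := hm
    rw [neg_neg, hs, pow_mul, hwpow, one_pow]

/-- The square of the swap block. -/
theorem swap_sq (z : F) : BlockForm.swapBlock z * BlockForm.swapBlock z = z • 1 := by
  ext i j
  fin_cases i <;> fin_cases j <;> simp [BlockForm.swapBlock, Matrix.mul_apply, Fin.sum_univ_two]

/-- Involutions modulo scalars with square multiple not a square. -/
theorem case_two (hF : Fintype.card F = q ^ 2) (h2 : (2 : F) ≠ 0) (hn : 0 < n)
    (hval : padicValNat 2 (q ^ 2 - 1) < padicValNat 2 n) : ¬ Elus (hermForm n F q) 2 := by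
  classical
  haveI : Fact (Nat.Prime 2) := ⟨Nat.prime_two⟩
  have hq2 := two_le hF
  have hodd : Odd q := by
    rw [← Nat.not_even_iff_odd]
    intro hev
    apply h2
    have hch : ringChar F ≠ 2 → False := by
      intro h
      have h3 : Odd (q * q) := by
        rw [← pow_two, ← hF]
        exact Nat.odd_iff.2 (FiniteField.odd_card_of_char_ne_two h)
      rw [Nat.odd_mul] at h3
      exact (Nat.not_even_iff_odd.mpr h3.1) hev
    by_contra h0
    apply hch
    intro hc
    apply h0
    have : CharP F 2 := hc ▸ ringChar.charP F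
    exact CharTwo.two_eq_zero
  obtain ⟨e, he⟩ := hodd
  have hndvd : 2 ^ (padicValNat 2 (q ^ 2 - 1) + 1) ∣ n :=
    (padicValNat_dvd_iff_le (by omega)).2 hval
  obtain ⟨m, hm⟩ : 2 ∣ n := (dvd_pow_self 2 (by omega)).trans hndvd
  have hm' : 2 ^ padicValNat 2 (q ^ 2 - 1) ∣ m := by
    rw [hm, pow_succ, mul_comm (2 ^ _) 2] at hndvd
    exact Nat.dvd_of_mul_dvd_mul_left (by norm_num) hndvd
  obtain ⟨z, hz0, hzN, hzm⟩ := exists_scalar hF he hm'
  have hmpos : 0 < m := by omega
  let ε : Fin n ≃ Fin 2 × Fin m := (finCongr hm).trans finProdFinEquiv.symm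
  let Bd : Matrix (Fin 2 × Fin m) (Fin 2 × Fin m) F := Matrix.blockDiagonal fun _ => BlockForm.swapBlock z
  let M : Matrix (Fin n) (Fin n) F := Bd.submatrix ε ε
  have hBd2 : Bd * Bd = z • 1 := by
    simp only [Bd]
    rw [← Matrix.blockDiagonal_mul]
    simp only [swap_sq]
    ext ⟨i, k⟩ ⟨j, l⟩
    simp only [Matrix.blockDiagonal_apply, Matrix.smul_apply, Matrix.one_apply, smul_eq_mul, Prod.mk.injEq]
    by_cases hkl : k = l
    · subst hkl
      simp
    · simp [hkl]
  have hM2 : M * M = z • 1 := by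
    simp only [M]
    rw [Matrix.submatrix_mul_equiv, hBd2]
    ext i j
    simp [Matrix.one_apply, ε.injective.eq_iff]
  have hMdet : M.det = 1 := by
    simp only [M]
    rw [Matrix.det_submatrix_equiv_self]
    simp only [Bd]
    rw [Matrix.det_blockDiagonal]
    simp only [BlockForm.det_swapBlock, Finset.prod_const, Finset.card_univ, Fintype.card_fin]
    exact hzm
  have hnotsq : ∀ c : F, c ^ 2 ≠ z := by
    rintro c rfl
    have hc0 : c ≠ 0 := by
      rintro rfl
      simp at hz0
    have h1 : c ^ (q ^ 2 - 1) = 1 := by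
      rw [← hF]
      exact FiniteField.pow_card_sub_one_eq_one c hc0
    have h3 : (c ^ 2) ^ ((q + 1) * e) = c ^ (q ^ 2 - 1) := by
      rw [← pow_mul]
      congr 1
      subst he
      have : (2 * e + 1) ^ 2 = 2 * ((2 * e + 1 + 1) * e) + 1 := by ring
      omega
    rw [h3, h1] at hzN
    apply h2
    linear_combination hzN
  refine not_elus_of_matrix 2 M hMdet z (by rw [pow_two]; exact hM2) ?_ ?_
  · intro c hcM
    apply hnotsq c
    have h1 := hM2
    rw [hcM, Matrix.smul_mul, Matrix.mul_smul, Matrix.mul_one, smul_smul] at h1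
    have h5 := congrFun (congrFun h1 ⟨0, hn⟩) ⟨0, hn⟩
    simp at h5
    rw [pow_two]
    exact h5
  · intro P' P₀ c hc0 h3 h4 hc
    set Y := P' * M * P₀ with hY
    have hYY : Y * Y = z • 1 := by
      have h5 := conj_pow_mat P' P₀ M h3 h4 2
      rw [pow_two, pow_two, hM2] at h5
      rw [hY, h5, Matrix.mul_smul, Matrix.smul_mul, Matrix.mul_one, h3]
    have S := herm_space (F := F) n hF
    have hw := herm_single hF (⟨0, hn⟩ : Fin n) ⟨0, hn⟩
    rw [if_pos rfl] at hw
    set u₀ : Fin n → F := Pi.single ⟨0, hn⟩ 1 with hu₀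
    have h5 : z * z ^ q = c ^ 2 := by
      have h6 : hermForm n F q (Y *ᵥ (Y *ᵥ u₀)) (Y *ᵥ (Y *ᵥ u₀)) = c * (c * hermForm n F q u₀ u₀) := by
        rw [hc, hc]
      rw [Matrix.mulVec_mulVec, hYY, Matrix.smul_mulVec, Matrix.one_mulVec, S.smul_left,
        S.smul_right hF, hw] at h6
      linear_combination h6
    have hcq : c ^ q = c := mu_frob hF hn Y c hc
    have h6 : c ^ (2 * e) = 1 := by
      have h7 : c * c ^ (2 * e) = c := by
        rw [← pow_succ', show 2 * e + 1 = q from he.symm, hcq]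
      have h8 : c * (c ^ (2 * e) - 1) = 0 := by linear_combination h7
      exact sub_eq_zero.1 ((mul_eq_zero.1 h8).resolve_left hc0)
    have h7 : z ^ ((q + 1) * e) = c ^ (2 * e) := by
      rw [pow_mul, pow_mul]
      congr 1
      rw [pow_succ, ← h5]
      ring
    rw [hzN, h6] at h7
    apply h2
    linear_combination -h7

end Cfsg.Agent.Lib.ElusU.Neg
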