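import Mathlib
import Cfsg.Agent.Lib.ElusU.Base
import Cfsg.Agent.Lib.Elusive.HermEigen

/-!
# Conjugating elements of `SL_n(q₀²)` into the similarity group of the standard unitary form
-/

set_option autoImplicit false
set_option linter.style.haveILetI false
set_option linter.unusedSectionVars false
set_option linter.unusedSimpArgs false

namespace Cfsg.Agent.Lib.ElusU.Pos

open Module Matrix Cfsg Cfsg.Geo
open Cfsg.Agent.Lib.HermCount.Field Cfsg.Agent.Lib.HermCount.Space
open Cfsg.Agent.Lib.HermCount.Lines (herm_space)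
open Cfsg.Agent.Lib.ElusU.Base
open Cfsg.Agent.Lib.Elusive
open scoped MatrixGroups

variable {F : Type*} [Field F] [Fintype F] {n q : ℕ}

/-- A diagonal map in a basis commuting with a map respecting the blocks of the diagonal. -/
theorem exists_comm_of_diag {κ : Type} [Fintype κ] [DecidableEq κ] {V : Type*} [AddCommGroup V] [Module F V]
    (b : Basis κ F V) (A : κ → κ → F) (G : V →ₗ[F] V) (hG : ∀ i, G (b i) = ∑ j, A j i • b j)
    (t : κ → F) (ht0 : ∀ i, t i ≠ 0) (ht : ∀ i j, A j i ≠ 0 → t j = t i) :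
    ∃ E : V ≃ₗ[F] V, LinearMap.det E.toLinearMap = ∏ i, t i ∧ ∀ v, E (G v) = G (E v) := by
  classical
  let D : Matrix κ κ F := Matrix.diagonal t
  let D' : Matrix κ κ F := Matrix.diagonal fun i => (t i)⁻¹
  have h1 : D * D' = 1 := by
    simp only [D, D', Matrix.diagonal_mul_diagonal]
    rw [← Matrix.diagonal_one]
    congr 1
    funext i
    exact mul_inv_cancel₀ (ht0 i)
  have h2 : D' * D = 1 := by
    simp only [D, D', Matrix.diagonal_mul_diagonal]
    rw [← Matrix.diagonal_one]
    congr 1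
    funext i
    exact inv_mul_cancel₀ (ht0 i)
  let E₁ : V →ₗ[F] V := Matrix.toLin b b D
  let E₂ : V →ₗ[F] V := Matrix.toLin b b D'
  have h12 : E₁ ∘ₗ E₂ = LinearMap.id := by
    rw [← Matrix.toLin_mul b b b, h1, Matrix.toLin_one]
  have h21 : E₂ ∘ₗ E₁ = LinearMap.id := by
    rw [← Matrix.toLin_mul b b b, h2, Matrix.toLin_one]
  let E : V ≃ₗ[F] V := LinearEquiv.ofLinearMap E₁ E₂ h12 h21
  refine ⟨E, ?_, ?_⟩
  · have : E.toLinearMap = E₁ := rfl
    rw [this, ← LinearMap.det_toMatrix b, LinearMap.toMatrix_toLin]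
    simp only [D]
    rw [Matrix.det_diagonal]
  · intro v
    have hE₁ : ∀ i, E₁ (b i) = t i • b i := by
      intro i
      simp only [E₁, D, Matrix.toLin_self, Matrix.diagonal_apply]
      rw [Finset.sum_eq_single i]
      · simp
      · intro j _ hj
        rw [if_neg hj, zero_smul]
      · simp
    have hEg : E₁ ∘ₗ G = G ∘ₗ E₁ := by
      apply b.ext
      intro i
      simp only [LinearMap.comp_apply, hE₁, map_smul, hG, map_sum, smul_smul, Finset.smul_sum]
      refine Finset.sum_congr rfl fun j _ => ?_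
      by_cases hji : A j i = 0
      · simp [hji]
      · rw [ht i j hji, mul_comm]
    exact LinearMap.congr_fun hEg v

/-- The key lemma: transporting the action of `x` on a basis `b` to the basis `c`. -/
theorem exists_conj_of_bases (hF : Fintype.card F = q ^ 2)
    (x : GL (Fin n) F) {κ : Type} [Fintype κ] [DecidableEq κ]
    (b c : Basis κ F (Fin n → F)) (A : κ → κ → F)
    (hb : ∀ i, (x : Matrix (Fin n) (Fin n) F) *ᵥ b i = ∑ j, A j i • b j)
    (E : (Fin n → F) ≃ₗ[F] (Fin n → F))
    (hEd : LinearMap.det E.toLinearMap *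
      LinearMap.det (b.equiv c (Equiv.refl κ)).toLinearMap = 1)
    (hE : ∀ v, E ((x : Matrix (Fin n) (Fin n) F) *ᵥ v) = (x : Matrix (Fin n) (Fin n) F) *ᵥ E v)
    (μ : F) (hμ : μ ≠ 0)
    (hc : ∀ i j, hermForm n F q (∑ k, A k i • c k) (∑ k, A k j • c k) =
      μ * hermForm n F q (c i) (c j)) :
    ∃ g ∈ specialLinear (Fin n) F, g⁻¹ * x * g ∈ similarityGroup (hermForm n F q) := by
  classical
  set T : (Fin n → F) ≃ₗ[F] (Fin n → F) := b.equiv c (Equiv.refl κ) with hT
  have hTb : ∀ i, T (b i) = c i := fun i => by simp [T]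
  let R : (Fin n → F) ≃ₗ[F] (Fin n → F) := E.trans T
  have hR : LinearMap.det R.toLinearMap = 1 := by
    have : R.toLinearMap = T.toLinearMap ∘ₗ E.toLinearMap := rfl
    rw [this, LinearMap.det_comp, mul_comm, hEd]
  have hRs : LinearMap.det R.symm.toLinearMap = 1 := by
    have h1 : LinearMap.det (R.symm.toLinearMap ∘ₗ R.toLinearMap) = 1 := by
      have : R.symm.toLinearMap ∘ₗ R.toLinearMap = LinearMap.id := by
        ext v
        simp
      rw [this, LinearMap.det_id]
    rw [LinearMap.det_comp, hR, mul_one] at h1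
    exact h1
  obtain ⟨P, hP⟩ := Cfsg.Agent.Lib.Classical.SLConj.exists_sl_of_linearEquiv R.symm hRs
  let g : GL (Fin n) F := Matrix.SpecialLinearGroup.toGL P
  have hgmat : (g : Matrix (Fin n) (Fin n) F) = (P : Matrix (Fin n) (Fin n) F) := rfl
  have hginv : ((g⁻¹ : GL (Fin n) F) : Matrix (Fin n) (Fin n) F) =
      ((P⁻¹ : Matrix.SpecialLinearGroup (Fin n) F) : Matrix (Fin n) (Fin n) F) := rfl
  have hPw : ∀ w, (P : Matrix (Fin n) (Fin n) F) *ᵥ w = R.symm w := by
    intro w
    rw [← hP]
    exact (Matrix.SpecialLinearGroup.toLin'_apply P w).symm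
  have hPinv : ∀ w, ((P⁻¹ : Matrix.SpecialLinearGroup (Fin n) F) : Matrix (Fin n) (Fin n) F) *ᵥ w = R w := by
    intro w
    have h0 : (P : Matrix (Fin n) (Fin n) F) *ᵥ (R w) = w := by
      rw [hPw]
      simp
    calc ((P⁻¹ : Matrix.SpecialLinearGroup (Fin n) F) : Matrix (Fin n) (Fin n) F) *ᵥ w
        = ((P⁻¹ : Matrix.SpecialLinearGroup (Fin n) F) : Matrix (Fin n) (Fin n) F) *ᵥ
            ((P : Matrix (Fin n) (Fin n) F) *ᵥ (R w)) := by rw [h0]
      _ = R w := by
        rw [Matrix.mulVec_mulVec, ← Matrix.SpecialLinearGroup.coe_mul, inv_mul_cancel]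
        simp
  refine ⟨g, ?_, ?_⟩
  · change Matrix.GeneralLinearGroup.det g = 1
    ext
    change (g : Matrix (Fin n) (Fin n) F).det = 1
    rw [hgmat]
    exact P.2
  -- the conjugate as a linear map
  let y : (Fin n → F) →ₗ[F] (Fin n → F) :=
    R.toLinearMap ∘ₗ Matrix.toLin' (x : Matrix (Fin n) (Fin n) F) ∘ₗ R.symm.toLinearMap
  have hy : ∀ v, ((g⁻¹ * x * g : GL (Fin n) F) : Matrix (Fin n) (Fin n) F) *ᵥ v = y v := by
    intro v
    rw [Units.val_mul, Units.val_mul, ← Matrix.mulVec_mulVec, ← Matrix.mulVec_mulVec, hgmat, hPw, hginv,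
      hPinv]
    rfl
  have hyc : ∀ i, y (c i) = ∑ k, A k i • c k := by
    intro i
    have h1 : R.symm (c i) = E.symm (b i) := by
      rw [LinearEquiv.symm_apply_eq]
      simp [R, hTb]
    have h3 : E ((x : Matrix (Fin n) (Fin n) F) *ᵥ (E.symm (b i))) =
        (x : Matrix (Fin n) (Fin n) F) *ᵥ (b i) := by
      rw [hE]
      simp
    simp only [y, LinearMap.comp_apply, LinearEquiv.coe_coe, Matrix.toLin'_apply, h1]
    simp only [R, LinearEquiv.trans_apply]
    rw [h3, hb, map_sum]
    simp [hTb]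
  have hexp : ∀ u, y u = ∑ i, c.repr u i • y (c i) := by
    intro u
    have h := congrArg y (c.sum_repr u)
    rw [map_sum] at h
    simp only [map_smul] at h
    exact h.symm
  have hkey : ∀ u v, hermForm n F q (y u) (y v) = μ * hermForm n F q u v := by
    intro u v
    calc hermForm n F q (y u) (y v)
        = ∑ i, ∑ j, c.repr u i * c.repr v j ^ q * hermForm n F q (y (c i)) (y (c j)) := by
          rw [hexp u, hexp v, HermPair.herm_sum_sum hF]
      _ = μ * ∑ i, ∑ j, c.repr u i * c.repr v j ^ q * hermForm n F q (c i) (c j) := by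
          rw [Finset.mul_sum]
          refine Finset.sum_congr rfl fun i _ => ?_
          rw [Finset.mul_sum]
          refine Finset.sum_congr rfl fun j _ => ?_
          rw [hyc, hyc, hc]
          ring
      _ = μ * hermForm n F q u v := by
          rw [← HermPair.herm_sum_sum hF, c.sum_repr, c.sum_repr]
  refine ⟨Units.mk0 μ hμ, fun u v => ?_⟩
  rw [hy, hy, Units.val_mk0]
  exact hkey u v

/-- The diagonal form of the key lemma. -/
theorem exists_conj_diag (hF : Fintype.card F = q ^ 2)
    (x : GL (Fin n) F) {κ : Type} [Fintype κ] [DecidableEq κ] [Nonempty κ]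
    (b c : Basis κ F (Fin n → F)) (d : κ → F)
    (hb : ∀ i, (x : Matrix (Fin n) (Fin n) F) *ᵥ b i = d i • b i)
    (μ : F) (hμ : μ ≠ 0)
    (hc : ∀ i j, hermForm n F q (c i) (c j) ≠ 0 → d i * d j ^ q = μ) :
    ∃ g ∈ specialLinear (Fin n) F, g⁻¹ * x * g ∈ similarityGroup (hermForm n F q) := by
  classical
  have S := herm_space (F := F) n hF
  obtain ⟨i₀⟩ := ‹Nonempty κ›
  have hT0 : LinearMap.det (b.equiv c (Equiv.refl κ)).toLinearMap ≠ 0 :=
    (LinearEquiv.isUnit_det' _).ne_zero
  set δ := (LinearMap.det (b.equiv c (Equiv.refl κ)).toLinearMap)⁻¹ with hδ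
  have hδ0 : δ ≠ 0 := inv_ne_zero hT0
  let A : κ → κ → F := fun j i => if j = i then d i else 0
  have hsum : ∀ (f : κ → (Fin n → F)) (i : κ), ∑ k, A k i • f k = d i • f i := by
    intro f i
    rw [Finset.sum_eq_single i]
    · simp [A]
    · intro j _ hj
      simp [A, hj]
    · simp
  obtain ⟨E, hEd, hE⟩ := exists_comm_of_diag b A (Matrix.toLin' (x : Matrix (Fin n) (Fin n) F))
    (fun i => by rw [Matrix.toLin'_apply, hb, hsum]) (fun i => if i = i₀ then δ else 1)
    (fun i => by
      by_cases h : i = i₀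
      · simpa [h] using hδ0
      · simp [h])
    (fun i j hji => by
      have h : j = i := by
        by_contra h
        exact hji (by simp [A, h])
      rw [h])
  refine exists_conj_of_bases hF x b c A ?_ E ?_ ?_ μ hμ ?_
  · intro i
    rw [hb, hsum]
  · rw [hEd, Finset.prod_ite_eq' Finset.univ i₀ (fun _ => δ)]
    simp only [Finset.mem_univ, if_true]
    rw [hδ, inv_mul_cancel₀ hT0]
  · intro v
    simpa using hE v
  · intro i j
    rw [hsum, hsum, S.smul_left, S.smul_right hF]
    by_cases h : hermForm n F q (c i) (c j) = 0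
    · rw [h]
      simp
    · rw [← hc i j h]
      ring

/-- The standard orthonormal basis with any index type of the right size. -/
theorem exists_orth_basis (hF : Fintype.card F = q ^ 2) {κ : Type} [Fintype κ] [DecidableEq κ]
    (hκ : Fintype.card κ = n) :
    ∃ c : Basis κ F (Fin n → F), ∀ i j, hermForm n F q (c i) (c j) = if i = j then 1 else 0 := by
  classical
  let ε : κ ≃ Fin n := Fintype.equivFinOfCardEq hκ
  let c : Basis κ F (Fin n → F) := (Pi.basisFun F (Fin n)).reindex ε.symm
  refine ⟨c, fun i j => ?_⟩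
  have hc : ∀ i, c i = Pi.single (ε i) 1 := fun i => by simp [c]
  rw [hc, hc, herm_single hF]
  by_cases h : i = j
  · simp [h]
  · simp [h, ε.injective.eq_iff]

/-- The case of a square in odd characteristic. -/
theorem exists_conj_square (hF : Fintype.card F = q ^ 2) (h2 : (2 : F) ≠ 0) (hqo : Odd q)
    (hn : 0 < n) (x : GL (Fin n) F) (a : F) (ha : a ≠ 0)
    (hsq : (x : Matrix (Fin n) (Fin n) F) * (x : Matrix (Fin n) (Fin n) F) = (a * a) • 1) :
    ∃ g ∈ specialLinear (Fin n) F, g⁻¹ * x * g ∈ similarityGroup (hermForm n F q) := by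
  classical
  let G : (Fin n → F) →ₗ[F] (Fin n → F) := Matrix.toLin' (x : Matrix (Fin n) (Fin n) F)
  have hG : ∀ v, G v = (x : Matrix (Fin n) (Fin n) F) *ᵥ v := fun v => rfl
  have hGG : G * G = (a * a) • 1 := by
    apply LinearMap.ext
    intro v
    simp only [Module.End.mul_apply, hG, Matrix.mulVec_mulVec, hsq, Matrix.smul_mulVec, Matrix.one_mulVec]
    simp
  have hne : a ≠ -a := by
    intro h
    have h3 : 2 * a = 0 := by linear_combination h
    exact (mul_ne_zero h2 ha) h3
  have hprod : ∏ α ∈ ({a, -a} : Finset F), (Polynomial.X - Polynomial.C α) =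
      (Polynomial.X - Polynomial.C a) * (Polynomial.X + Polynomial.C a) := by
    rw [Finset.prod_pair hne]
    simp
  have hann : Polynomial.aeval G (∏ α ∈ ({a, -a} : Finset F), (Polynomial.X - Polynomial.C α)) = 0 := by
    rw [hprod, map_mul, map_sub, map_add, Polynomial.aeval_X, Polynomial.aeval_C]
    simp only [Module.algebraMap_end_eq_smul_id]
    have : (G - a • LinearMap.id) * (G + a • LinearMap.id) = G * G - (a * a) • (1 : End F (Fin n → F)) := by
      apply LinearMap.ext
      intro v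
      simp [Module.End.mul_apply, smul_smul, mul_comm a]
      abel
    rw [this, hGG, sub_self]
  obtain ⟨d, b, hb, hd⟩ := EigenSplit.exists_eigen_basis G ({a, -a} : Finset F) hann n (by simp)
  obtain ⟨c, hc⟩ := exists_orth_basis hF (κ := Fin n) (n := n) (by simp)
  haveI : Nonempty (Fin n) := ⟨⟨0, hn⟩⟩
  have hμ0 : a * a ^ q ≠ 0 := mul_ne_zero ha (pow_ne_zero _ ha)
  refine exists_conj_diag hF x b c d hb (a * a ^ q) hμ0 ?_
  intro i j hij
  have hij' : i = j := by
    by_contra h
    apply hij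
    rw [hc, if_neg h]
  subst hij'
  have := hd i
  simp only [Finset.mem_insert, Finset.mem_singleton] at this
  rcases this with h | h
  · rw [h]
  · rw [h, hqo.neg_pow]
    ring

/-- The case of characteristic two. -/
theorem exists_conj_char2 (hF : Fintype.card F = q ^ 2) (h2 : (2 : F) = 0)
    (x : GL (Fin n) F) (a : F) (ha : a ≠ 0)
    (hsq : (x : Matrix (Fin n) (Fin n) F) * (x : Matrix (Fin n) (Fin n) F) = (a * a) • 1)
    (hns : ∀ z : F, (x : Matrix (Fin n) (Fin n) F) ≠ z • 1) :
    ∃ g ∈ specialLinear (Fin n) F, g⁻¹ * x * g ∈ similarityGroup (hermForm n F q) := by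
  classical
  have S := herm_space (F := F) n hF
  haveI hc2 : CharP F 2 := CharTwo.of_one_ne_zero_of_two_eq_zero one_ne_zero h2
  have hch : ringChar F = 2 := ringChar.eq F 2
  let G : (Fin n → F) →ₗ[F] (Fin n → F) := a⁻¹ • Matrix.toLin' (x : Matrix (Fin n) (Fin n) F)
  have hGx : ∀ v, (x : Matrix (Fin n) (Fin n) F) *ᵥ v = a • G v := by
    intro v
    simp only [G, LinearMap.smul_apply, Matrix.toLin'_apply, smul_smul, mul_inv_cancel₀ ha, one_smul]
  have hGG : ∀ v, G (G v) = (1 : F) • v := by
    intro v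
    simp only [G, LinearMap.smul_apply, Matrix.toLin'_apply, map_smul, smul_smul, Matrix.mulVec_mulVec, hsq,
      Matrix.smul_mulVec, Matrix.one_mulVec]
    rw [one_smul, ← mul_assoc]
    field_simp
    simp
  obtain ⟨K, L, _, _, e, s, h1, h3, h4⟩ := BlockForm.exists_normal_basis G 1 one_ne_zero hGG
  have hs : ∀ l, s l = 1 := by
    intro l
    have h5 := hGG (e (.inr l))
    rw [h4, map_smul, h4, smul_smul, one_smul] at h5
    have h6 : (s l * s l - 1) • e (.inr l) = 0 := by
      rw [sub_smul, h5, one_smul, sub_self]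
    have h7 := (smul_eq_zero.mp h6).resolve_right (e.ne_zero _)
    have h8 : (s l - 1) ^ 2 = 0 := by
      have h9 : (s l - 1) ^ 2 = (s l * s l - 1) + 2 * (1 - s l) := by ring
      rw [h9, h7, h2]
      ring
    exact sub_eq_zero.1 (pow_eq_zero_iff (two_ne_zero) |>.1 h8)
  -- the block index
  let π : (K × Bool) ⊕ L → (K × Bool) ⊕ L := fun i => match i with
    | .inl (k, b) => .inl (k, !b)
    | .inr l => .inr l
  have hπ : Function.Involutive π := by
    rintro (⟨k, b⟩ | l)
    · simp [π]
    · simp [π]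
  have hGe : ∀ i, G (e i) = e (π i) := by
    rintro (⟨k, b⟩ | l)
    · cases b
      · simpa [π] using h1 k
      · simpa [π] using h3 k
    · simp [π, h4, hs]
  -- `K` is not empty
  have hK : Nonempty K := by
    by_contra hne
    rw [not_nonempty_iff] at hne
    apply hns a
    have h5 : ∀ v, G v = v := by
      intro v
      have h6 : G = LinearMap.id := by
        apply e.ext
        rintro (⟨k, b⟩ | l)
        · exact (hne.false k).elim
        · simp [h4, hs]
      rw [h6]
      rfl
    apply Matrix.ext_of_mulVec_single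
    intro j
    rw [hGx, h5, Matrix.smul_mulVec, Matrix.one_mulVec]
  obtain ⟨k₀⟩ := hK
  obtain ⟨c, hc⟩ := exists_orth_basis hF (κ := (K × Bool) ⊕ L) (n := n) (by
    have := finrank_eq_card_basis e
    simpa using this.symm)
  let A : (K × Bool) ⊕ L → (K × Bool) ⊕ L → F := fun j i => if j = π i then a else 0
  have hsum : ∀ (f : (K × Bool) ⊕ L → (Fin n → F)) (i : (K × Bool) ⊕ L), ∑ k, A k i • f k = a • f (π i) := by
    intro f i
    rw [Finset.sum_eq_single (π i)]
    · simp [A]
    · intro j _ hj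
      simp [A, hj]
    · simp
  have hT0 : LinearMap.det (e.equiv c (Equiv.refl _)).toLinearMap ≠ 0 :=
    (LinearEquiv.isUnit_det' _).ne_zero
  obtain ⟨α, hα⟩ := FiniteField.isSquare_of_char_two hch
    (LinearMap.det (e.equiv c (Equiv.refl _)).toLinearMap)⁻¹
  have hα0 : α ≠ 0 := by
    rintro rfl
    simp only [mul_zero] at hα
    exact (inv_ne_zero hT0) hα
  let t : (K × Bool) ⊕ L → F := Sum.elim (fun p => if p.1 = k₀ then α else 1) (fun _ => 1)
  have hprod : ∏ i, t i = α * α := by
    rw [Fintype.prod_sum_type]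
    simp only [t, Sum.elim_inl, Sum.elim_inr, Finset.prod_const_one, mul_one]
    rw [Fintype.prod_prod_type]
    simp only [Fintype.prod_bool]
    rw [Finset.prod_mul_distrib, Finset.prod_ite_eq' Finset.univ k₀ (fun _ => α)]
    simp
  have htπ : ∀ i, t (π i) = t i := by
    rintro (⟨k, b⟩ | l) <;> simp [t, π]
  obtain ⟨E, hEd, hE⟩ := exists_comm_of_diag e A (Matrix.toLin' (x : Matrix (Fin n) (Fin n) F))
    (fun i => by rw [Matrix.toLin'_apply, hGx, hGe, hsum]) t
    (by
      rintro (⟨k, b⟩ | l)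
      · simp only [t, Sum.elim_inl]
        split_ifs
        · exact hα0
        · exact one_ne_zero
      · simp [t])
    (fun i j hji => by
      have h : j = π i := by
        by_contra h
        exact hji (by simp [A, h])
      rw [h, htπ])
  have hμ0 : a * a ^ q ≠ 0 := mul_ne_zero ha (pow_ne_zero _ ha)
  refine exists_conj_of_bases hF x e c A ?_ E ?_ ?_ (a * a ^ q) hμ0 ?_
  · intro i
    rw [hGx, hGe, hsum]
  · rw [hEd, hprod, ← hα, inv_mul_cancel₀ hT0]
  · intro v
    simpa using hE v
  · intro i j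
    rw [hsum, hsum, S.smul_left, S.smul_right hF, hc, hc]
    have : π i = π j ↔ i = j := hπ.injective.eq_iff
    by_cases h : i = j
    · simp [h]
    · simp [h, this]
      
/-- The determinant of an element whose square is a non-square scalar. -/
theorem det_of_nonsquare [FiniteDimensional F (Fin n → F)] (G : (Fin n → F) →ₗ[F] (Fin n → F)) (z : F) (hz0 : z ≠ 0)
    (hz : ¬ IsSquare z) (hGG : ∀ v, G (G v) = z • v) :
    ∃ m : ℕ, n = 2 * m ∧ LinearMap.det G = (-z) ^ m := by
  classical
  obtain ⟨K, L, _, _, e, s, h1, h3, h4⟩ := BlockForm.exists_normal_basis G z hz0 hGG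
  have hL : IsEmpty L := by
    refine ⟨fun l => hz ?_⟩
    have h5 := hGG (e (.inr l))
    rw [h4, map_smul, h4, smul_smul] at h5
    have h6 : (s l * s l - z) • e (.inr l) = 0 := by
      rw [sub_smul, h5, sub_self]
    have h7 := (smul_eq_zero.mp h6).resolve_right (e.ne_zero _)
    exact ⟨s l, by linear_combination -h7⟩
  let ε : Fin 2 × K ≃ (K × Bool) ⊕ L :=
    { toFun := fun p => .inl (p.2, decide (p.1 = 1))
      invFun := fun y => match y with
        | .inl (k, b) => (if b then 1 else 0, k)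
        | .inr l => (hL.false l).elim
      left_inv := by
        rintro ⟨i, k⟩
        fin_cases i <;> simp
      right_inv := by
        rintro (⟨k, b⟩ | l)
        · cases b <;> simp
        · exact (hL.false l).elim }
  let b : Basis (Fin 2 × K) F (Fin n → F) := e.reindex ε.symm
  have hb : ∀ p, b p = e (ε p) := fun p => by simp [b]
  have hb0 : ∀ m, G (b (0, m)) = b (1, m) := by
    intro m
    rw [hb, hb]
    simpa [ε] using h1 m
  have hb1 : ∀ m, G (b (1, m)) = z • b (0, m) := by
    intro m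
    rw [hb, hb]
    simpa [ε] using h3 m
  have hK : Fintype.card (Fin 2 × K) = n := by
    have := finrank_eq_card_basis b
    simpa using this.symm
  refine ⟨Fintype.card K, by simpa using hK.symm, ?_⟩
  let M : K → Matrix (Fin 2) (Fin 2) F := fun _ => BlockForm.swapBlock z
  have hbM : ∀ i m, G (b (i, m)) = ∑ j, M m j i • b (j, m) := by
    intro i m
    fin_cases i
    · simp [M, BlockForm.swapBlock, Fin.sum_univ_two, hb0]
    · simp [M, BlockForm.swapBlock, Fin.sum_univ_two, hb1]
  have h5 := BlockForm.toMatrix_eq_blockDiagonal b M G hbM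
  rw [← LinearMap.det_toMatrix b, h5, Matrix.det_blockDiagonal]
  simp [M, BlockForm.det_swapBlock]

/-- Whether a scalar square is a square. -/
theorem isSquare_of_val (hF : Fintype.card F = q ^ 2) (h2 : (2 : F) ≠ 0) (hn : 0 < n)
    (hval : padicValNat 2 n ≤ padicValNat 2 (q ^ 2 - 1)) (x : GL (Fin n) F)
    (hdet : (x : Matrix (Fin n) (Fin n) F).det = 1) (z : F) (hz0 : z ≠ 0)
    (hsq : (x : Matrix (Fin n) (Fin n) F) * (x : Matrix (Fin n) (Fin n) F) = z • 1) : IsSquare z := by
  classical
  haveI : Fact (Nat.Prime 2) := ⟨Nat.prime_two⟩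
  by_contra hz
  have hq2 := two_le hF
  have hodd : Odd q := by
    rw [← Nat.not_even_iff_odd]
    intro hev
    apply h2
    by_contra h0
    have h : ringChar F ≠ 2 := by
      intro hc
      apply h0
      have : CharP F 2 := hc ▸ ringChar.charP F
      exact CharTwo.two_eq_zero
    have h3 : Odd (q * q) := by
      rw [← pow_two, ← hF]
      exact Nat.odd_iff.2 (FiniteField.odd_card_of_char_ne_two h)
    rw [Nat.odd_mul] at h3
    exact (Nat.not_even_iff_odd.mpr h3.1) hev
  have hch : ringChar F ≠ 2 := by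
    intro hc
    apply h2
    have : CharP F 2 := hc ▸ ringChar.charP F
    exact CharTwo.two_eq_zero
  obtain ⟨e, he⟩ := hodd
  let G : (Fin n → F) →ₗ[F] (Fin n → F) := Matrix.toLin' (x : Matrix (Fin n) (Fin n) F)
  have hGG : ∀ v, G (G v) = z • v := by
    intro v
    simp only [G, Matrix.toLin'_apply, Matrix.mulVec_mulVec, hsq, Matrix.smul_mulVec, Matrix.one_mulVec]
  obtain ⟨m, hm, hdetm⟩ := det_of_nonsquare G z hz0 hz hGG
  have hm1 : (-z) ^ m = 1 := by
    rw [← hdetm]
    simp only [G]
    rw [LinearMap.det_toLin', hdet]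
  have hmpos : 0 < m := by omega
  have hq1 : q ^ 2 - 1 ≠ 0 := by
    have h1 : 1 < q ^ 2 := Nat.one_lt_pow (by norm_num) (by omega)
    omega
  -- the Euler criterion
  set N := (q + 1) * e with hN
  have hNq : q ^ 2 - 1 = 2 * N := by
    subst he
    rw [hN]
    have : (2 * e + 1) ^ 2 = 2 * ((2 * e + 1 + 1) * e) + 1 := by ring
    omega
  have hcard2 : Fintype.card F / 2 = N := by
    rw [hF]
    have h1 : 1 ≤ q ^ 2 := Nat.one_le_pow _ _ (by omega)
    omega
  have hzN : z ^ N = -1 := by
    have h3 := (FiniteField.isSquare_iff hch hz0).not.mp hz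
    rcases FiniteField.pow_dichotomy hch hz0 with h4 | h4
    · exact absurd h4 h3
    · rwa [hcard2] at h4
  have hNeven : Even N := by
    refine Even.mul_right ?_ _
    subst he
    exact ⟨e + 1, by ring⟩
  have hyN : (-z) ^ N = -1 := by
    rw [neg_pow, hNeven.neg_one_pow, one_mul, hzN]
  -- the 2-adic valuations
  obtain ⟨a, m', hm'o, hm'⟩ := Nat.exists_eq_two_pow_mul_odd hmpos.ne'
  set v := padicValNat 2 (q ^ 2 - 1) with hv
  obtain ⟨t, ht⟩ : 2 ^ v ∣ q ^ 2 - 1 := pow_padicValNat_dvd
  have hvaln : padicValNat 2 n = a + 1 := by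
    have hm'0 : m' ≠ 0 := hm'o.pos.ne'
    rw [hm, hm', show 2 * (2 ^ a * m') = 2 ^ (a + 1) * m' by ring,
      padicValNat.mul (by positivity) hm'0, padicValNat.prime_pow,
      padicValNat.eq_zero_of_not_dvd (by
        rw [← even_iff_two_dvd, Nat.not_even_iff_odd]
        exact hm'o), add_zero]
  have hav : a + 1 ≤ v := by omega
  have hN2 : N = 2 ^ (v - 1) * t := by
    have h1 : 2 * N = 2 * (2 ^ (v - 1) * t) := by
      rw [← hNq, ht]
      obtain ⟨w, hw⟩ : ∃ w, v = w + 1 := ⟨v - 1, by omega⟩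
      rw [hw]
      simp only [Nat.add_sub_cancel]
      ring
    omega
  have hexp : m' * N = m * (2 ^ (v - 1 - a) * t) := by
    rw [hN2, hm']
    have h1 : 2 ^ (v - 1) = 2 ^ a * 2 ^ (v - 1 - a) := by
      rw [← pow_add]
      congr 1
      omega
    rw [h1]
    ring
  have h5 : (-z) ^ (m' * N) = 1 := by
    rw [hexp, pow_mul, hm1, one_pow]
  rw [mul_comm, pow_mul, hyN, hm'o.neg_one_pow] at h5
  apply h2
  linear_combination -h5

end Cfsg.Agent.Lib.ElusU.Pos
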