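import Mathlib
import Cfsg.Agent.Lib.ElusU.Pos

/-!
# Elements of order `r` in dimension `r` for `r ∈ {3, 5}`, and involutions modulo scalars
-/

set_option autoImplicit false
set_option linter.style.haveILetI false
set_option linter.unusedSectionVars false
set_option linter.unusedSimpArgs false

namespace Cfsg.Agent.Lib.ElusU.Pos2

open Module Matrix Cfsg Cfsg.Geo
open Cfsg.Agent.Lib.HermCount.Field Cfsg.Agent.Lib.HermCount.Space
open Cfsg.Agent.Lib.HermCount.Lines (herm_space)
open Cfsg.Agent.Lib.ElusU.Base Cfsg.Agent.Lib.ElusU.Pos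
open Cfsg.Agent.Lib.FGStruct.GoB (exists_pairing5 exists_primitive scalar_eq_one prod_eq_det)
open Cfsg.Agent.Lib.Elusive
open scoped MatrixGroups

variable {F : Type*} [Field F] [Fintype F] {n q : ℕ}

/-- The involution on the index of a hyperbolic basis. -/
def dualIdx {m : ℕ} : Unit ⊕ (Fin m ⊕ Fin m) → Unit ⊕ (Fin m ⊕ Fin m)
  | .inl _ => .inl ()
  | .inr (.inl k) => .inr (.inr k)
  | .inr (.inr k) => .inr (.inl k)

/-- A hyperbolic basis of an odd-dimensional Hermitian space. -/
theorem exists_hyp_basis (hF : Fintype.card F = q ^ 2) {m : ℕ} (hn : n = 2 * m + 1) :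
    ∃ c : Basis (Unit ⊕ (Fin m ⊕ Fin m)) F (Fin n → F),
      ∀ i j, hermForm n F q (c i) (c (dualIdx j)) = if i = j then 1 else 0 := by
  classical
  have S := herm_space (F := F) n hF
  have hneg : (-1 : F) ^ q = -1 := by
    have := map_neg (frobHom hF) (1 : F)
    rw [map_one] at this
    exact this
  obtain ⟨α, hα⟩ := HermEigen.exists_norm_eq hF (-1) hneg (by simp)
  obtain ⟨t, ht⟩ := exists_trace hF (-1) hneg
  have hcard : Fintype.card (Unit ⊕ (Fin m ⊕ Fin m)) = n := by
    simp [hn]
    ring
  obtain ⟨w, hw⟩ := exists_orth_basis hF hcard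
  let E : Fin m → (Fin n → F) := fun k => w (.inr (.inl k)) + α • w (.inr (.inr k))
  let H : Fin m → (Fin n → F) := fun k => w (.inr (.inl k)) + t • E k
  let u : Unit ⊕ (Fin m ⊕ Fin m) → (Fin n → F) := fun i => match i with
    | .inl _ => w (.inl ())
    | .inr (.inl k) => E k
    | .inr (.inr k) => H k
  have haa : ∀ k l, hermForm n F q (w (.inr (.inl k))) (w (.inr (.inl l))) = if k = l then 1 else 0 := by
    intro k l
    rw [hw]
    simp
  have hab : ∀ k l, hermForm n F q (w (.inr (.inl k))) (w (.inr (.inr l))) = 0 := by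
    intro k l
    rw [hw]
    simp
  have hba : ∀ k l, hermForm n F q (w (.inr (.inr k))) (w (.inr (.inl l))) = 0 := by
    intro k l
    rw [hw]
    simp
  have hbb : ∀ k l, hermForm n F q (w (.inr (.inr k))) (w (.inr (.inr l))) = if k = l then 1 else 0 := by
    intro k l
    rw [hw]
    simp
  have h0a : ∀ k, hermForm n F q (w (.inl ())) (w (.inr (.inl k))) = 0 := by
    intro k
    rw [hw]
    simp
  have h0b : ∀ k, hermForm n F q (w (.inl ())) (w (.inr (.inr k))) = 0 := by
    intro k
    rw [hw]
    simp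
  have ha0 : ∀ k, hermForm n F q (w (.inr (.inl k))) (w (.inl ())) = 0 := by
    intro k
    rw [hw]
    simp
  have hb0 : ∀ k, hermForm n F q (w (.inr (.inr k))) (w (.inl ())) = 0 := by
    intro k
    rw [hw]
    simp
  have h00 : hermForm n F q (w (.inl ())) (w (.inl ())) = 1 := by
    rw [hw]
    simp
  have hαα : α * α ^ q = -1 := by
    rw [← hα, pow_succ]
    ring
  have hEE : ∀ k l, hermForm n F q (E k) (E l) = 0 := by
    intro k l
    simp only [E]
    rw [S.add_left, S.add_right hF, S.add_right hF, S.smul_left, S.smul_right hF, S.smul_left,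
      S.smul_right hF, haa, hab, hba, hbb]
    by_cases h : k = l
    · simp only [h, if_true]
      linear_combination hαα
    · simp [h]
  have haE : ∀ k l, hermForm n F q (w (.inr (.inl k))) (E l) = if k = l then 1 else 0 := by
    intro k l
    simp only [E]
    rw [S.add_right hF, S.smul_right hF, haa, hab]
    ring
  have hEa : ∀ k l, hermForm n F q (E k) (w (.inr (.inl l))) = if k = l then 1 else 0 := by
    intro k l
    simp only [E]
    rw [S.add_left, S.smul_left, haa, hba]
    ring
  have hEH : ∀ k l, hermForm n F q (E k) (H l) = if k = l then 1 else 0 := by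
    intro k l
    simp only [H]
    rw [S.add_right hF, S.smul_right hF, hEa, hEE]
    ring
  have hHE : ∀ k l, hermForm n F q (H k) (E l) = if k = l then 1 else 0 := by
    intro k l
    simp only [H]
    rw [S.add_left, S.smul_left, haE, hEE]
    ring
  have hHH : ∀ k l, hermForm n F q (H k) (H l) = 0 := by
    intro k l
    simp only [H]
    rw [S.add_left, S.add_right hF, S.add_right hF, S.smul_left, S.smul_right hF, S.smul_left,
      S.smul_right hF, haa, haE, hEa, hEE]
    by_cases h : k = l
    · simp only [h, if_true]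
      linear_combination ht
    · simp [h]
  have h0E : ∀ k, hermForm n F q (w (.inl ())) (E k) = 0 := by
    intro k
    simp only [E]
    rw [S.add_right hF, S.smul_right hF, h0a, h0b]
    ring
  have hE0 : ∀ k, hermForm n F q (E k) (w (.inl ())) = 0 := by
    intro k
    simp only [E]
    rw [S.add_left, S.smul_left, ha0, hb0]
    ring
  have h0H : ∀ k, hermForm n F q (w (.inl ())) (H k) = 0 := by
    intro k
    simp only [H]
    rw [S.add_right hF, S.smul_right hF, h0a, h0E]
    ring
  have hH0 : ∀ k, hermForm n F q (H k) (w (.inl ())) = 0 := by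
    intro k
    simp only [H]
    rw [S.add_left, S.smul_left, ha0, hE0]
    ring
  have hgram : ∀ i j, hermForm n F q (u i) (u (dualIdx j)) = if i = j then 1 else 0 := by
    rintro (⟨⟩ | k | k) (⟨⟩ | l | l)
    · simp only [u, dualIdx]
      rw [h00]
      simp
    · simp only [u, dualIdx]
      rw [h0H]
      simp
    · simp only [u, dualIdx]
      rw [h0E]
      simp
    · simp only [u, dualIdx]
      rw [hE0]
      simp
    · simp only [u, dualIdx]
      rw [hEH]
      simp
    · simp only [u, dualIdx]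
      rw [hEE]
      simp
    · simp only [u, dualIdx]
      rw [hH0]
      simp
    · simp only [u, dualIdx]
      rw [hHH]
      simp
    · simp only [u, dualIdx]
      rw [hHE]
      simp
  have hli : LinearIndependent F u := by
    rw [Fintype.linearIndependent_iff]
    intro g hg j
    have hexp : ∀ (s : Finset (Unit ⊕ (Fin m ⊕ Fin m))) (y : Fin n → F),
        hermForm n F q (∑ i ∈ s, g i • u i) y = ∑ i ∈ s, g i * hermForm n F q (u i) y := by
      intro s y
      induction s using Finset.induction_on with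
      | empty => simp [S.zero_left]
      | insert j s hj ih => rw [Finset.sum_insert hj, Finset.sum_insert hj, S.add_left, S.smul_left, ih]
    have h1 := hexp Finset.univ (u (dualIdx j))
    rw [hg, S.zero_left] at h1
    simp only [hgram] at h1
    rw [Finset.sum_eq_single j] at h1
    · simpa using h1.symm
    · intro i _ hi
      simp [hi]
    · simp
  haveI : Nonempty (Unit ⊕ (Fin m ⊕ Fin m)) := ⟨.inl ()⟩
  let c : Basis (Unit ⊕ (Fin m ⊕ Fin m)) F (Fin n → F) :=
    basisOfLinearIndependentOfCardEqFinrank hli (by simp [hcard])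
  refine ⟨c, fun i j => ?_⟩
  simp only [c, coe_basisOfLinearIndependentOfCardEqFinrank]
  exact hgram i j

/-- The Witt form of the diagonal key lemma. -/
theorem exists_conj_witt (hF : Fintype.card F = q ^ 2) {m : ℕ} (hn : n = 2 * m + 1) (x : GL (Fin n) F)
    (b : Basis (Unit ⊕ (Fin m ⊕ Fin m)) F (Fin n → F)) (d : Unit ⊕ (Fin m ⊕ Fin m) → F)
    (hdq : ∀ i, d i ^ q = d i)
    (hb : ∀ i, (x : Matrix (Fin n) (Fin n) F) *ᵥ b i = d i • b i) (hd0 : d (.inl ()) ≠ 0)
    (hd : ∀ k, d (.inr (.inl k)) * d (.inr (.inr k)) = d (.inl ()) * d (.inl ())) :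
    ∃ g ∈ specialLinear (Fin n) F, g⁻¹ * x * g ∈ similarityGroup (hermForm n F q) := by
  classical
  obtain ⟨c, hc⟩ := exists_hyp_basis hF (F := F) hn
  haveI : Nonempty (Unit ⊕ (Fin m ⊕ Fin m)) := ⟨.inl ()⟩
  refine exists_conj_diag hF x b c d hb (d (.inl ()) * d (.inl ())) (mul_ne_zero hd0 hd0) ?_
  intro i j hne
  have hdual : ∀ j : Unit ⊕ (Fin m ⊕ Fin m), dualIdx (dualIdx j) = j := by
    rintro (⟨⟩ | k | k) <;> rfl
  have h1 := hc i (dualIdx j)
  rw [hdual] at h1
  have hij : i = dualIdx j := by
    by_contra h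
    rw [if_neg h] at h1
    exact hne h1
  subst hij
  rw [hdq]
  rcases j with ⟨⟩ | k | k
  · rfl
  · simp only [dualIdx]
    rw [mul_comm]
    exact hd k
  · simp only [dualIdx]
    exact hd k

/-- The case `n = r ∈ {3, 5}` with `(q - 1)_r = r`. -/
theorem exists_conj_prime (hF : Fintype.card F = q ^ 2) {r : ℕ} [hr : Fact r.Prime]
    (hr35 : r = 3 ∨ r = 5) (hval : padicValNat r (q - 1) = 1) (x : GL (Fin r) F)
    (hx : x ∈ specialLinear (Fin r) F)
    (hz : ∃ z : F, ((x ^ r : GL (Fin r) F) : Matrix (Fin r) (Fin r) F) = z • 1) :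
    ∃ g ∈ specialLinear (Fin r) F, g⁻¹ * x * g ∈ similarityGroup (hermForm r F q) := by
  classical
  obtain ⟨z, hz⟩ := hz
  have hq2 := two_le hF
  have hdetx : (x : Matrix (Fin r) (Fin r) F).det = 1 := by
    have h1 : Matrix.GeneralLinearGroup.det x = 1 := hx
    have h3 := congrArg Units.val h1
    simpa using h3
  have hpow : (x : Matrix (Fin r) (Fin r) F) ^ r = z • 1 := by
    rw [← hz, Units.val_pow_eq_pow_val]
  have hrodd : Odd r := by
    rcases hr35 with rfl | rfl <;> decide
  have hq1 : q - 1 ≠ 0 := by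
    intro h0
    rw [h0] at hval
    simp at hval
  have hrq : r ∣ q - 1 := by
    have := (padicValNat_dvd_iff_le (p := r) (n := 1) hq1).2 (by omega)
    simpa using this
  have hfac : q ^ 2 - 1 = (q - 1) * (q + 1) := by
    obtain ⟨t, ht⟩ : ∃ t, q = t + 1 := ⟨q - 1, by omega⟩
    subst ht
    simp only [Nat.add_sub_cancel]
    have : (t + 1) ^ 2 = t * (t + 1 + 1) + 1 := by ring
    omega
  have hval2 : padicValNat r (q ^ 2 - 1) = 1 := by
    rw [hfac, padicValNat.mul hq1 (by omega), hval]
    have hnd : ¬ r ∣ q + 1 := by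
      intro h
      have h3 : r ∣ (q + 1) - (q - 1) := Nat.dvd_sub h hrq
      have h4 : (q + 1) - (q - 1) = 2 := by omega
      rw [h4] at h3
      have h5 := (Nat.prime_dvd_prime_iff_eq hr.out Nat.prime_two).1 h3
      rw [h5] at hrodd
      exact absurd hrodd (by decide)
    rw [padicValNat.eq_zero_of_not_dvd hnd]
  have hz1 : z = 1 := scalar_eq_one hF hrodd hval2 _ hdetx z hpow
  subst hz1
  rw [one_smul] at hpow
  have hrq2 : r ∣ q ^ 2 - 1 := by
    rw [hfac]
    exact hrq.trans (dvd_mul_right _ _)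
  have hq21 : q ^ 2 - 1 ≠ 0 := by
    rw [hfac]
    exact mul_ne_zero hq1 (by omega)
  obtain ⟨ω, hω⟩ := exists_primitive hF hrq2 hq21
  let G : (Fin r → F) →ₗ[F] (Fin r → F) := Matrix.toLin' (x : Matrix (Fin r) (Fin r) F)
  have hG : ∀ v, G v = (x : Matrix (Fin r) (Fin r) F) *ᵥ v := fun v => rfl
  have hGpow : G ^ r = 1 := by
    have h1 : (Matrix.toLin' (x : Matrix (Fin r) (Fin r) F) : Module.End F (Fin r → F)) ^ r =
        Matrix.toLin' ((x : Matrix (Fin r) (Fin r) F) ^ r) :=
      (map_pow (Matrix.toLinAlgEquiv' (R := F) (n := Fin r)) _ r).symm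
    change (Matrix.toLin' (x : Matrix (Fin r) (Fin r) F) : Module.End F (Fin r → F)) ^ r = 1
    rw [h1, hpow]
    exact Matrix.toLin'_one
  have hann : Polynomial.aeval G (∏ α ∈ Polynomial.nthRootsFinset r (1 : F),
      (Polynomial.X - Polynomial.C α)) = 0 := by
    rw [← Polynomial.X_pow_sub_one_eq_prod hr.out.pos hω]
    simp [hGpow]
  obtain ⟨d, b, hb, hd⟩ := EigenSplit.exists_eigen_basis G _ hann r (by simp)
  have hdr : ∀ i, d i ^ r = 1 := fun i =>
    (Polynomial.mem_nthRootsFinset hr.out.pos 1).1 (hd i)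
  have hprod : ∏ i, d i = 1 := by
    rw [← prod_eq_det b G d hb]
    change LinearMap.det (Matrix.toLin' (x : Matrix (Fin r) (Fin r) F)) = 1
    rw [LinearMap.det_toLin']
    exact hdetx
  have hd0 : ∀ i, d i ≠ 0 := by
    intro i h0
    have := hdr i
    rw [h0, zero_pow hr.out.ne_zero] at this
    exact zero_ne_one this
  have hdq : ∀ i, d i ^ q = d i := by
    intro i
    obtain ⟨t, ht⟩ := hrq
    have h1 : q = (q - 1) + 1 := by omega
    rw [h1, pow_succ]
    have h2 : d i ^ (q - 1) = 1 := by
      rw [ht, pow_mul, hdr, one_pow]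
    simp [h2]
  rcases hr35 with rfl | rfl
  · -- `r = 3`
    have hcard : Fintype.card (Unit ⊕ (Fin 1 ⊕ Fin 1)) = 3 := by simp
    let ρ : Unit ⊕ (Fin 1 ⊕ Fin 1) ≃ Fin 3 := Fintype.equivFinOfCardEq hcard
    refine exists_conj_witt hF (m := 1) (by norm_num) x (b.reindex ρ.symm) (fun i => d (ρ i)) (fun i => hdq _) ?_
      (hd0 _) ?_
    · intro i
      rw [Basis.reindex_apply, ← hG, hb]
      simp
    · intro k
      have hk : k = 0 := Subsingleton.elim _ _
      subst hk
      have h3 : ∏ i, d (ρ i) = 1 := by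
        rw [Equiv.prod_comp ρ d, hprod]
      rw [Fintype.prod_sum_type, Fintype.prod_sum_type] at h3
      simp only [Fintype.prod_unique, Finset.univ_unique, Finset.prod_singleton] at h3
      have h4 := hdr (ρ (.inl ()))
      have hc : d (ρ (.inl ())) * (d (ρ (.inr (.inl 0))) * d (ρ (.inr (.inr 0)))) = 1 := by
        simpa using h3
      calc d (ρ (.inr (.inl 0))) * d (ρ (.inr (.inr 0)))
          = d (ρ (.inl ())) ^ 3 * (d (ρ (.inr (.inl 0))) * d (ρ (.inr (.inr 0)))) := by rw [h4, one_mul]
        _ = d (ρ (.inl ())) * d (ρ (.inl ())) * (d (ρ (.inl ())) * (d (ρ (.inr (.inl 0))) * d (ρ (.inr (.inr 0))))) := by ring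
        _ = _ := by rw [hc, mul_one]
  · -- `r = 5`
    obtain ⟨ρ, hρ⟩ := exists_pairing5 hω d hdr hprod
    refine exists_conj_witt hF (m := 2) (by norm_num) x (b.reindex ρ.symm) (fun i => d (ρ i)) (fun i => hdq _) ?_
      (hd0 _) hρ
    intro i
    rw [Basis.reindex_apply, ← hG, hb]
    simp

/-- Involutions modulo scalars. -/
theorem elus_two (hF : Fintype.card F = q ^ 2) (hn : 0 < n)
    (h : (2 : F) = 0 ∨ padicValNat 2 n ≤ padicValNat 2 (q ^ 2 - 1)) : Elus (hermForm n F q) 2 := by
  classical
  intro x hx hz hns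
  obtain ⟨z, hz⟩ := hz
  have hdetx : (x : Matrix (Fin n) (Fin n) F).det = 1 := by
    have h1 : Matrix.GeneralLinearGroup.det x = 1 := hx
    have h3 := congrArg Units.val h1
    simpa using h3
  have hsq : (x : Matrix (Fin n) (Fin n) F) * (x : Matrix (Fin n) (Fin n) F) = z • 1 := by
    rw [← hz, Units.val_pow_eq_pow_val, pow_two]
  have hz0 : z ≠ 0 := by
    rintro rfl
    rw [zero_smul] at hsq
    have h3 : (x : Matrix (Fin n) (Fin n) F).det * (x : Matrix (Fin n) (Fin n) F).det = 0 := by
      haveI : Nonempty (Fin n) := ⟨⟨0, hn⟩⟩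
      rw [← Matrix.det_mul, hsq]
      exact Matrix.det_zero
    rw [hdetx] at h3
    simp at h3
  by_cases h2 : (2 : F) = 0
  · haveI hc2 : CharP F 2 := CharTwo.of_one_ne_zero_of_two_eq_zero one_ne_zero h2
    have hch : ringChar F = 2 := ringChar.eq F 2
    obtain ⟨a, rfl⟩ := FiniteField.isSquare_of_char_two hch z
    exact exists_conj_char2 hF h2 x a (by
      rintro rfl
      simp at hz0) hsq hns
  · have hval := h.resolve_left h2
    obtain ⟨a, rfl⟩ := isSquare_of_val hF h2 hn hval x hdetx z hz0 hsq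
    have hqo : Odd q := by
      rw [← Nat.not_even_iff_odd]
      intro hev
      apply h2
      by_contra h0
      have hch : ringChar F ≠ 2 := by
        intro hc
        apply h0
        have : CharP F 2 := hc ▸ ringChar.charP F
        exact CharTwo.two_eq_zero
      have h3 : Odd (q * q) := by
        rw [← pow_two, ← hF]
        exact Nat.odd_iff.2 (FiniteField.odd_card_of_char_ne_two hch)
      rw [Nat.odd_mul] at h3
      exact (Nat.not_even_iff_odd.mpr h3.1) hev
    exact exists_conj_square hF h2 hqo hn x a (by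
      rintro rfl
      simp at hz0) hsq

/-- The prime case as a statement on the standard form. -/
theorem elus_prime (hF : Fintype.card F = q ^ 2) {r : ℕ} [hr : Fact r.Prime]
    (hr35 : r = 3 ∨ r = 5) (hval : padicValNat r (q - 1) = 1) : Elus (hermForm r F q) r := by
  intro x hx hz _
  exact exists_conj_prime hF hr35 hval x hx hz

end Cfsg.Agent.Lib.ElusU.Pos2
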